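import Mathlib
import Cfsg.Agent.Std.Cover
import Cfsg.Agent.Spor.ESQuot

/-!
Standard subgroups `A` with centre of order two and normaliser `A C(A)`: two commuting conjugates of the central
involution, elements of order three.
-/

set_option autoImplicit false

namespace Cfsg.Agent.Std.Two

open Cfsg Subgroup

variable {A : Type*} [Group A] {G : Type*} [Group G]

/-- The elements of order three of `C(a)` have enough commutators and a small centraliser. -/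
def Good (z a : A) : Prop :=
  (∀ y, y * a = a * y → y ^ 3 = 1 → y ≠ 1 → ∀ N : Subgroup A,
    (∀ x, x * a = a * x → y * x * y⁻¹ * x⁻¹ ∈ N) → z ∈ N) ∧
  ∀ l, (∀ d, d * a = a * d → d ^ 3 = 1 → l * d = d * l) → l = 1 ∨ l = z ∨ l * a = 1 ∨ l * a = z

/-- The centre is `⟨z⟩`. -/
structure Cen (z : A) : Prop where
  zz : z * z = 1
  ne : z ≠ 1
  comm : ∀ y, y * z = z * y
  cen : ∀ x, (∀ y, y * x = x * y) → x = 1 ∨ x = z

/-- The centraliser of the image. -/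
abbrev CK (ι : A →* G) : Subgroup G := centralizer (ι.range : Set G)

theorem CK.comm {ι : A →* G} {k : G} (h : k ∈ CK ι) (b : A) : Commute (ι b) k := h _ ⟨b, rfl⟩

/-- `C(z) = A C(A)`. -/
structure Emb (ι : A →* G) (z : A) : Prop where
  cen : Cen z
  inj : Function.Injective ι
  dec : ∀ g, Commute g (ι z) → ∃ a, ∃ k ∈ CK ι, g = ι a * k

namespace Emb

variable {ι ι' : A →* G} {z : A} (e : Emb ι z)
include e

theorem zK : ι z ∈ CK ι := by
  rintro _ ⟨b, rfl⟩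
  rw [← map_mul, ← map_mul, e.cen.comm]

theorem zz : ι z * ι z = 1 := by rw [← map_mul, e.cen.zz, map_one]

theorem z_ne : ι z ≠ 1 := fun h => e.cen.ne (e.inj (h.trans (map_one ι).symm))

theorem inf {a : A} (h : ι a ∈ CK ι) : a = 1 ∨ a = z :=
  e.cen.cen a fun y => e.inj (by rw [map_mul, map_mul]; exact CK.comm h y)

theorem memK {a : A} (h : a = 1 ∨ a = z) : ι a ∈ CK ι := by
  rcases h with rfl | rfl
  exacts [map_one ι ▸ one_mem _, e.zK]

theorem normK {g k : G} (hg : Commute g (ι z)) (hk : k ∈ CK ι) : g * k * g⁻¹ ∈ CK ι := by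
  obtain ⟨a, k0, h0, rfl⟩ := e.dec g hg
  have h1 := mul_mem (mul_mem h0 hk) (inv_mem h0)
  rwa [show ι a * k0 * k * (ι a * k0)⁻¹ = ι a * (k0 * k * k0⁻¹) * (ι a)⁻¹ by group, (CK.comm h1 a).eq,
    mul_inv_cancel_right]

theorem comm_mem {g k : G} (hg : Commute g (ι z)) (hk : k ∈ CK ι) : k * g * k⁻¹ * g⁻¹ ∈ CK ι := by
  simpa only [mul_assoc] using mul_mem hk (e.normK hg (inv_mem hk))

theorem pow_or {a : A} {k : G} (hk : k ∈ CK ι) {n : ℕ} (h : (ι a * k) ^ n = 1) : a ^ n = 1 ∨ a ^ n = z := by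
  rw [(CK.comm hk a).mul_pow, ← map_pow] at h
  exact e.inf (eq_inv_of_mul_eq_one_left h ▸ inv_mem (pow_mem hk n))

theorem sq_eq {a : A} (h : a = 1 ∨ a = z) : a * a = 1 := by
  rcases h with rfl | rfl
  exacts [mul_one _, e.cen.zz]

theorem split3 {g : G} (hg : Commute g (ι z)) (h3 : g ^ 3 = 1) :
    ∃ l, ∃ k ∈ CK ι, g = ι l * k ∧ l ^ 3 = 1 ∧ k ^ 3 = 1 := by
  obtain ⟨a, k, hk, rfl⟩ := e.dec g hg
  have h1 : (a ^ 4) ^ 3 = 1 := by
    rw [← pow_mul, show 4 * 3 = 3 * 2 * 2 from rfl, pow_mul, pow_mul, sq (a ^ 3), e.sq_eq (e.pow_or hk h3), one_pow]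
  have h2 : ι a * k = ι (a ^ 4) * k ^ 4 := by
    rw [map_pow, ← (CK.comm hk a).mul_pow, pow_succ, h3, one_mul]
  refine ⟨a ^ 4, k ^ 4, pow_mem hk 4, h2, h1, ?_⟩
  rwa [h2, (CK.comm (pow_mem hk 4) _).mul_pow, ← map_pow, h1, map_one, one_mul] at h3

omit e in
theorem cj_eq {l : A} {k : G} (hk : k ∈ CK ι) (x : A) : ι l * k * ι x * (ι l * k)⁻¹ = ι (l * x * l⁻¹) := by
  rw [mul_assoc (ι l), ← (CK.comm hk x).eq, map_mul, map_mul, map_inv]; group

theorem comm3 {l a : A} {k k0 : G} (hk : k ∈ CK ι) (h0 : k0 ∈ CK ι) (h3 : l ^ 3 = 1)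
    (h : Commute (ι l * k) (ι a * k0)) : l * a = a * l := by
  have h1 : ι (a⁻¹ * (l * a * l⁻¹)) = k0 * (ι l * k * k0 * (ι l * k)⁻¹)⁻¹ := by
    have := mul_inv_eq_iff_eq_mul.2 h.eq
    rw [map_mul, map_inv, ← cj_eq hk, eq_mul_inv_iff_mul_eq, mul_assoc, inv_mul_eq_iff_eq_mul, ← this]; group
  have h2 : Commute (ι l * k) (ι z) := (CK.comm e.zK l).mul_left (CK.comm hk z).symm
  rcases e.inf (h1 ▸ mul_mem h0 (inv_mem (e.normK h2 h0))) with h4 | h4
  · exact mul_inv_eq_iff_eq_mul.1 (inv_mul_eq_one.1 h4).symm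
  · have h5 : l * a * l⁻¹ = a * z := inv_mul_eq_iff_eq_mul.1 h4
    have h6 : l * z * l⁻¹ = z := by rw [e.cen.comm, mul_inv_cancel_right]
    have : l ^ 3 * a * (l ^ 3)⁻¹ = a * (z * z) * z := by
      calc _ = l * (l * (l * a * l⁻¹) * l⁻¹) * l⁻¹ := by simp only [pow_succ, pow_zero, one_mul]; group
        _ = _ := by simp only [h5, ← conj_mul, h6]; simp only [mul_assoc]
    rw [h3, e.cen.zz] at this
    exact absurd (by simpa using this) e.cen.ne

theorem conj (g : G) : Emb ((MulAut.conj g).toMonoidHom.comp ι) z := by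
  refine ⟨e.cen, (MulAut.conj g).injective.comp e.inj, fun x hx => ?_⟩
  obtain ⟨a, k, hk, h⟩ := e.dec (g⁻¹ * x * g) (by
    have := hx.map (MulAut.conj g⁻¹)
    simpa [mul_assoc] using this)
  refine ⟨a, g * k * g⁻¹, ?_, ?_⟩
  · rintro _ ⟨b, rfl⟩
    exact (CK.comm hk b).map (MulAut.conj g)
  · calc x = g * (g⁻¹ * x * g) * g⁻¹ := by group
      _ = _ := by rw [h]; simp [mul_assoc]

end Emb

/-- Two commuting copies. -/
structure Pr (ι ι' : A →* G) (z : A) : Prop where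
  e : Emb ι z
  e' : Emb ι' z
  c : Commute (ι z) (ι' z)
  dis : ∀ k ∈ CK ι, k ∈ CK ι' → k * k = 1 → k = 1

namespace Pr

variable {ι ι' : A →* G} {z : A} (h : Pr ι ι' z)
include h

theorem symm : Pr ι' ι z := ⟨h.e', h.e, h.c.symm, fun k h1 h2 => h.dis k h2 h1⟩

theorem not_mem : ι z ∉ CK ι' := fun h1 => h.e.z_ne (h.dis _ h.e.zK h1 h.e.zz)

theorem dis' {n : ℕ} : ∀ {k : G}, k ∈ CK ι → k ∈ CK ι' → k ^ 2 ^ n = 1 → k = 1 := by
  induction n with
  | zero => intro k _ _ h3; simpa using h3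
  | succ n ih =>
    intro k h1 h2 h3
    exact h.dis k h1 h2 (ih (mul_mem h1 h1) (mul_mem h2 h2) (by rw [← sq, ← pow_mul, ← pow_succ', h3]))

section

variable {a : A} {k0 : G} (h0 : k0 ∈ CK ι) (ht : ι' z = ι a * k0)
include h0 ht

omit h in
theorem comm_t {x : A} (hx : x * a = a * x) : Commute (ι x) (ι' z) :=
  ht ▸ ((show Commute x a from hx).map ι).mul_right (CK.comm h0 x)

variable (ha : Good z a)
include ha

theorem three {y : G} (h1 : y ∈ CK ι') (h2 : Commute y (ι z)) (h3 : y ^ 3 = 1) : y ∈ CK ι := by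
  obtain ⟨l, k, hk, rfl, l3, -⟩ := h.e.split3 h2 h3
  by_cases hl : l = 1
  · rw [hl, map_one, one_mul]; exact hk
  · refine absurd (ha.1 l (h.e.comm3 hk h0 l3 (ht ▸ (CK.comm h1 z).symm)) l3 hl ((CK ι').comap ι) fun x hx => ?_)
      h.not_mem
    rw [mem_comap, map_mul, map_inv, ← Emb.cj_eq hk]
    exact h.e'.comm_mem (comm_t h0 ht hx) h1

theorem cenN {d n : A} (hd : d * a = a * d) (d3 : d ^ 3 = 1) (hn : ι n ∈ CK ι') : Commute d n := by
  obtain ⟨l, k, hk, e1, l3, k3⟩ := h.e'.split3 (comm_t h0 ht hd) (by rw [← map_pow, d3, map_one])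
  obtain ⟨a', k', hk', e2⟩ := h.e'.dec _ h.c
  have h1 : Commute (ι d) (ι z) := CK.comm h.e.zK d
  have h2 : Commute (ι' l) (ι z) := Pr.comm_t hk' e2 (h.e'.comm3 hk hk' l3 (e1 ▸ e2 ▸ h1))
  have h3 := h.three h0 ht ha hk (by simpa [e1] using h2.inv_left.mul_left h1) k3
  exact h.e.inj (by
    rw [map_mul, map_mul, e1]; exact (CK.comm hn l).mul_left (CK.comm h3 n).symm)

theorem mem_or {r : G} (h1 : r ∈ CK ι') (h2 : Commute r (ι z)) : r ∈ CK ι ∨ r * ι' z ∈ CK ι := by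
  obtain ⟨l, k, hk, rfl⟩ := h.e.dec r h2
  have := ha.2 l fun d hd d3 => by
    have h3 : ι (l * d * l⁻¹ * d⁻¹) ∈ CK ι' := by
      rw [map_mul, map_inv, ← Emb.cj_eq hk]; exact h.e'.comm_mem (comm_t h0 ht hd) h1
    have h4 : (l * d * l⁻¹ * d⁻¹) ^ 3 = 1 := by
      have := (h.cenN h0 ht ha hd d3 h3).symm.mul_pow 3
      rw [inv_mul_cancel_right, conj_pow, d3] at this
      simpa using this.symm
    rcases h.e.inf (h.three h0 ht ha h3 (CK.comm h.e.zK _) (by rw [← map_pow, h4, map_one])) with h5 | h5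
    · exact mul_inv_eq_iff_eq_mul.1 (mul_inv_eq_one.1 h5)
    · rw [h5, pow_succ, sq, h.e.cen.zz, one_mul] at h4
      exact absurd h4 h.e.cen.ne
  rw [← or_assoc] at this
  refine this.imp (fun h3 => mul_mem (h.e.memK h3) hk) fun h3 => ?_
  rw [ht, mul_assoc, ← mul_assoc k, ← (CK.comm hk a).eq, mul_assoc, ← mul_assoc, ← map_mul]
  exact mul_mem (h.e.memK h3) (mul_mem hk h0)

theorem two_elt {r : G} (h1 : r ∈ CK ι') {n : ℕ} (hn : r ^ 2 ^ n = 1) : r = 1 ∨ r = ι' z := by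
  have key : ∀ {r : G} {n : ℕ}, r ∈ CK ι' → Commute r (ι z) → r ^ 2 ^ n = 1 → r = 1 ∨ r = ι' z := by
    intro r n h1 h2 hn
    refine (h.mem_or h0 ht ha h1 h2).imp (fun h3 => h.dis' h3 h1 hn) fun h3 => ?_
    have := h.dis' (n := n + 1) h3 (mul_mem h1 h.e'.zK) (by
      rw [(CK.comm h1 z).symm.mul_pow, pow_succ, pow_mul, hn, mul_comm, pow_mul, sq (ι' z), h.e'.zz]; simp)
    rw [eq_inv_of_mul_eq_one_left this, inv_eq_of_mul_eq_one_left h.e'.zz]
  obtain ⟨a', k', hk', e2⟩ := h.e'.dec _ h.c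
  have h2 : (ι' a' * k') ^ 2 = 1 := by rw [← e2, sq, h.e.zz]
  have h3 : k' ^ 2 ^ 2 = 1 := by
    have h4 := h.e'.sq_eq (h.e'.pow_or hk' h2)
    have : (ι' a' * k') ^ (2 * 2) = 1 := by rw [pow_mul, h2, one_pow]
    rwa [(CK.comm hk' a').mul_pow, ← map_pow, pow_mul a', sq (a' ^ 2), h4, map_one, one_mul] at this
  refine key h1 ?_ hn
  rw [e2]
  refine (CK.comm h1 a').symm.mul_right ?_
  rcases key hk' (e2 ▸ (CK.comm hk' a').symm.mul_right (Commute.refl _)) h3 with rfl | rfl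
  exacts [Commute.one_right _, (CK.comm h1 z).symm]

end

theorem good_of (s2 : ∀ l : A, l ^ 4 = 1 → l * l = 1 ∨ l * l = z ∨ Good z (l * l)) {l : A} {k : G} (hk : k ∈ CK ι)
    (ht : ι' z = ι (l * l) * k) (h4 : l ^ 4 = 1) : ∃ a, ∃ k ∈ CK ι, ι' z = ι a * k ∧ Good z a := by
  have := s2 l h4
  rw [← or_assoc] at this
  exact ⟨_, k, hk, ht, this.resolve_left fun h1 => h.symm.not_mem (ht ▸ mul_mem (h.e.memK h1) hk)⟩

theorem good_or (s1 : ∀ a : A, a * a = 1 → ∃ r, r * a = a * r ∧ r * r = z)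
    (s2 : ∀ l : A, l ^ 4 = 1 → l * l = 1 ∨ l * l = z ∨ Good z (l * l)) (s3 : ∀ l : A, l ^ 16 = 1 → l ^ 8 = 1) :
    (∃ a, ∃ k ∈ CK ι, ι' z = ι a * k ∧ Good z a) ∨ ∃ a, ∃ k ∈ CK ι', ι z = ι' a * k ∧ Good z a := by
  obtain ⟨a, k, hk, ht⟩ := h.e.dec _ h.c.symm
  obtain ⟨r, r1, r2⟩ : ∃ r, r * a = a * r ∧ r * r = z := by
    rcases h.e.pow_or hk (n := 2) (by rw [← ht, sq, h.e'.zz]) with h1 | h1
    exacts [s1 a (sq a ▸ h1), ⟨a, rfl, sq a ▸ h1⟩]
  obtain ⟨l, k1, hk1, e1⟩ := h.e'.dec _ (comm_t hk ht r1)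
  have e2 : ι z = ι' (l * l) * (k1 * k1) := by
    rw [← r2, map_mul, e1, ← sq, (CK.comm hk1 l).mul_pow, map_mul, sq, sq]
  have e3 := h.e'.pow_or (mul_mem hk1 hk1) (n := 2) (by rw [← e2, sq, h.e.zz])
  rw [← sq, ← pow_mul] at e3
  rcases e3 with e3 | e3
  · exact .inr (h.symm.good_of s2 (mul_mem hk1 hk1) e2 e3)
  · obtain ⟨x, k2, hk2, e4⟩ := h.e.dec _ (comm_t (mul_mem hk1 hk1) e2 (mul_assoc l l l).symm)
    have e5 : ι' z = ι (x * x * (x * x)) * k2 ^ 4 := by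
      rw [← e3, map_pow, e4, (CK.comm hk2 x).mul_pow, ← map_pow]
      simp only [pow_succ, pow_zero, one_mul, mul_assoc]
    have e6 := h.e.sq_eq (h.e.pow_or (pow_mem hk2 4) (n := 2) (by rw [← e5, sq, h.e'.zz]))
    refine .inl (h.good_of s2 (pow_mem hk2 4) e5 ?_)
    rw [← sq, ← pow_mul]
    exact s3 x (by rw [← e6]; simp only [pow_succ, pow_zero, one_mul, mul_assoc])

end Pr

variable [Finite G] {L : Subgroup G} {z : L}

omit [Finite G] in
theorem emb_of (hz : Cen z) (hL : IsStandardSubgroup L) (hinn : ∀ φ : L ≃* L, ∃ a, ∀ b, φ b = a * b * a⁻¹) :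
    Emb L.subtype z := by
  have h0 : (z : G) ∈ centralizer (L : Set G) := fun b hb => congrArg Subtype.val (hz.comm ⟨b, hb⟩)
  refine ⟨hz, L.subtype_injective, fun x hx => ?_⟩
  have h1 := hL.centralizer_le (orderOf_eq_prime (by rw [sq]; exact congrArg Subtype.val hz.zz)
    fun e => hz.ne (Subtype.ext e)) h0 (mem_centralizer_singleton_iff.2 hx)
  obtain ⟨a, ha⟩ := hinn (L.normalizerMonoidHom ⟨x, h1⟩)
  refine ⟨a, (a : G)⁻¹ * x, ?_, by simp⟩
  rintro _ ⟨b, rfl⟩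
  have : x * b * x⁻¹ = a * b * (a : G)⁻¹ := congrArg Subtype.val (ha b)
  calc _ = (a : G)⁻¹ * (a * b * (a : G)⁻¹) * x := by simp [mul_assoc]
    _ = _ := by rw [← this]; simp [mul_assoc]

omit [Finite G] in
theorem pr_of (e : Emb L.subtype z) (hL : IsStandardSubgroup L) {g : G} (hc : Commute (z : G) (g * z * g⁻¹))
    (hne : g * z * g⁻¹ ≠ z) : Pr L.subtype ((MulAut.conj g).toMonoidHom.comp L.subtype) z := by
  refine ⟨e, e.conj g, hc, fun k h1 h2 h3 => by_contra fun h4 => hne ?_⟩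
  rw [CK, range_subtype] at h1
  have h5 : g ∈ normalizer (L : Set G) := by
    rw [hL.2.2.2]
    by_contra hn
    have h6 := (hL.2.1.2 g hn).of_dvd_nat (orderOf_dvd_natCard _ (show k ∈ centralizer (L : Set G) ⊓ _ from
      ⟨h1, g⁻¹ * k * g, fun b hb => by simpa [mul_assoc] using ((CK.comm h2 ⟨b, hb⟩).map (MulAut.conj g⁻¹)).eq,
        by simp [mul_assoc]⟩))
    rw [orderOf_eq_prime (by rw [sq, h3]) h4] at h6
    exact absurd h6 (by decide)
  have h6 : g * z * g⁻¹ ∈ L := (mem_normalizer_iff.1 h5 _).1 z.2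
  rcases e.cen.cen ⟨_, h6⟩ fun y => Subtype.ext (by
    have := congrArg Subtype.val (e.cen.comm ⟨_, (mem_normalizer_iff''.1 h5 _).1 y.2⟩)
    calc (y : G) * (g * z * g⁻¹) = g * (g⁻¹ * y * g * z) * g⁻¹ := by group
      _ = g * z * g⁻¹ * y := by rw [show g⁻¹ * y * g * z = z * (g⁻¹ * y * g) from this]; group) with h7 | h7
  · exact absurd (Subtype.ext (by simpa using congrArg Subtype.val h7)) e.cen.ne
  · exact congrArg Subtype.val h7

/-- If every `2`-element of `C(L)` lies in `⟨z⟩` and `O(C(z)) = 1`, then `C(z) = L`. -/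
theorem centralizer_eq (e : Emb L.subtype z) (hO : centralizerPPrimeCore 2 (z : G) = ⊥)
    (h : ∀ r ∈ CK L.subtype, ∀ n : ℕ, r ^ 2 ^ n = 1 → r = 1 ∨ r = z) : centralizer {(z : G)} = L := by
  have : Fact (Nat.Prime 2) := ⟨Nat.prime_two⟩
  have h4 : ¬ 4 ∣ Nat.card (CK L.subtype) := fun h4 => by
    obtain ⟨P, hP⟩ := Sylow.exists_subgroup_card_pow_prime 2 (n := 2) h4
    have h1 : P ≤ zpowers ⟨_, e.zK⟩ := fun x hx => by
      have h0 : x ^ 2 ^ 2 = 1 := orderOf_dvd_iff_pow_eq_one.1 (hP ▸ orderOf_dvd_natCard P hx)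
      rcases h x x.2 2 (congrArg Subtype.val h0) with h1 | h1
      · rw [show x = 1 from Subtype.ext h1]; exact one_mem _
      · rw [show x = ⟨_, e.zK⟩ from Subtype.ext h1]; exact mem_zpowers _
    have h2 := card_le_of_le h1
    rw [hP, Nat.card_zpowers, ← orderOf_coe, orderOf_eq_prime (p := 2) (by rw [sq]; exact e.zz) e.z_ne] at h2
    omega
  have h5 : GT.pPrimeCoreOf 2 (CK L.subtype) = ⊥ := le_bot_iff.1 (hO ▸ GT.pPrimeCoreOf_le_pPrimeCoreOf
    (fun k hk => mem_centralizer_singleton_iff.2 (CK.comm hk z).symm) fun g hg => mem_normalizer_fintype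
      fun k hk => e.normK (mem_centralizer_singleton_iff.1 hg) hk)
  refine le_antisymm (fun g hg => ?_) fun g hg => mem_centralizer_singleton_iff.2 (CK.comm e.zK ⟨g, hg⟩)
  obtain ⟨a, k, hk, rfl⟩ := e.dec g (mem_centralizer_singleton_iff.1 hg)
  refine mul_mem a.2 ?_
  have h6 : oddCore (CK L.subtype) = ⊥ := GT.pPrimeCoreOf_eq_bot_iff.1 h5
  rcases Spor.mem_oddCore_or (D := CK L.subtype) (z := ⟨_, e.zK⟩) (fun h => e.z_ne (congrArg Subtype.val h)) (Subtype.ext e.zz)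
    (fun x => Subtype.ext (CK.comm x.2 z).eq) h4 ⟨k, hk⟩ with h7 | h7 <;> rw [h6, mem_bot] at h7
  · rw [show k = 1 from congrArg Subtype.val h7]; exact one_mem _
  · rw [eq_inv_of_mul_eq_one_right (show (z : G) * k = 1 from congrArg Subtype.val h7)]; exact inv_mem z.2

theorem main (e : Emb L.subtype z) (hL : IsStandardSubgroup L) (hO : oddCore G = ⊥) (hZ : center G = ⊥)
    (s1 : ∀ a : L, a * a = 1 → ∃ r, r * a = a * r ∧ r * r = z)
    (s2 : ∀ l : L, l ^ 4 = 1 → l * l = 1 ∨ l * l = z ∨ Good z (l * l)) (s3 : ∀ l : L, l ^ 16 = 1 → l ^ 8 = 1) :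
    ∀ r ∈ CK L.subtype, ∀ n : ℕ, r ^ 2 ^ n = 1 → r = 1 ∨ r = z := by
  obtain ⟨g, hc, hne⟩ : ∃ g : G, Commute (z : G) (g * z * g⁻¹) ∧ g * z * g⁻¹ ≠ z := by
    by_contra h
    push Not at h
    exact e.z_ne (mem_bot.1 (hZ ▸ IsIsolatedInvolution.mem_center
      ⟨orderOf_eq_prime (by rw [sq]; exact e.zz) e.z_ne, h⟩ hO))
  have h := pr_of e hL hc hne
  intro r hr n hn
  rcases h.good_or s1 s2 s3 with ⟨a, k, h1, h2, h3⟩ | ⟨a, k, h1, h2, h3⟩
  · have := h.two_elt h1 h2 h3 (r := g * r * g⁻¹) (n := n)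
      (by rintro _ ⟨b, rfl⟩; exact (CK.comm hr b).map (MulAut.conj g)) (by rw [conj_pow, hn]; group)
    exact this.imp (by simp) fun h => (MulAut.conj g).injective h
  · exact h.symm.two_elt h1 h2 h3 hr hn

end Cfsg.Agent.Std.Two
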