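import Mathlib
import Cfsg.Agent.Std.WAct

/-!
# A standard subgroup of type `M₂₃` or `McL`: two bounds in `N(L) / C(L)`
-/

set_option autoImplicit false

namespace Cfsg.Agent.Std.W

open Cfsg.Agent.GT Cfsg.Agent.Loc.Mss Cfsg.Agent.Wr Subgroup

universe u

variable {G : Type u} [Group G] [Finite G]

namespace A2

omit [Finite G] in
theorem norm_LK (L : Subgroup G) : L ⊔ 𝐂[L] ≤ 𝐍[𝐂[L]] := sup_le (norm_cent le_normalizer) le_normalizer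

/-- A 2-subgroup of `L C(L)` agrees modulo `C(L)` with a 2-subgroup of `L`. -/
theorem exists_Q1 (s : Lw G) {Q : Subgroup G} (hQ : IsPGroup 2 Q) (hL : Q ≤ s.L ⊔ 𝐂[s.L]) :
    ∃ Q1 ≤ s.L, IsPGroup 2 Q1 ∧ 𝐂[s.L] ⊔ Q = 𝐂[s.L] ⊔ Q1 ∧
      Nat.card Q = Nat.card Q1 * Nat.card (Q ⊓ 𝐂[s.L] : Subgroup G) := by
  obtain ⟨Q1, h1⟩ := Syl.exists 2 (s.L ⊓ (𝐂[s.L] ⊔ Q))
  have hn : Q ≤ 𝐍[𝐂[s.L]] := hL.trans (norm_LK _)
  have h1L : Q1 ≤ s.L := h1.le.trans inf_le_left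
  have h2 : s.L ⊓ (𝐂[s.L] ⊔ Q) ≤ 𝐂[s.L] ⊔ Q1 :=
    h1.sup_of_res_le (res_le_of_le_sup hn hQ inf_le_right)
  have e : 𝐂[s.L] ⊔ Q = 𝐂[s.L] ⊔ Q1 := by
    refine le_antisymm (sup_le le_sup_left fun q hq => ?_)
      (sup_le le_sup_left (h1.le.trans inf_le_right))
    obtain ⟨l, hl, k, hk, rfl⟩ := (mem_sup_norm' (norm_cent le_normalizer)).1 (hL hq)
    refine mul_mem (h2 ⟨hl, ?_⟩) (mem_sup_left hk)
    exact (mul_mem_cancel_right (mem_sup_left hk)).1 (mem_sup_right hq)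
  refine ⟨Q1, h1L, h1.pg, e, ?_⟩
  have c1 := PG.card_sup_mul_card_inf hn
  have c2 := PG.card_sup_mul_card_inf (h1L.trans (norm_cent le_normalizer))
  have c3 : Q1 ⊓ 𝐂[s.L] = ⊥ := (eq_bot_iff_forall _).2 fun x hx => by
    obtain ⟨n, hn⟩ := two_elt h1.pg hx.1
    exact s.two_one (h1L hx.1) hn hx.2
  rw [c3, card_bot, mul_one, sup_comm, ← e] at c2
  rw [sup_comm, c2, mul_right_comm] at c1
  exact (Nat.eq_of_mul_eq_mul_right Nat.card_pos c1).symm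

theorem card_le (b : Bas G) {Q : Subgroup G} (hN : Q ≤ 𝐍[b.L]) :
    Nat.card Q ≤ 2 * Nat.card (Q ⊓ (b.L ⊔ 𝐂[b.L]) : Subgroup G) :=
  card_le_two_mul fun a ha a' ha' => b.idx a (hN ha) a' (hN ha')

theorem aux (b : Bas G) {Q A : Subgroup G} (hN : Q ≤ 𝐍[b.L]) (hA : A ≤ Q) (hc : A ≤ 𝐂[Q])
    (hd : A ⊓ 𝐂[b.L] = ⊥) (e : b.T ≤ 𝐂[b.L] ⊔ Q) : Nat.card A ≤ 2 := by
  have hK : Q ≤ 𝐍[𝐂[b.L]] := norm_cent hN
  have h1 : ∀ a ∈ A, ∀ p, a * b.ι p * a⁻¹ = b.ι p := by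
    intro a ha p
    obtain ⟨k, hk, q, hq, e'⟩ := (mem_sup_norm hK).1 (e (b.ιT p))
    obtain ⟨n, hn⟩ := two_elt b.pgT (b.ιT p)
    refine (b.two_eq (b.ιL p) (conj_mem_of_norm (hN (hA ha)) (b.ιL p)) hn (m := n)
      (by rw [conj_pow, hn, mul_one, mul_inv_cancel]) ?_).symm
    have := conj_mem_of_norm' (hK hq) (mul_mem (inv_mem hk) (conj_mem_of_norm (hK (hA ha)) hk))
    rw [← e']
    convert this using 1
    calc (k * q)⁻¹ * (a * (k * q) * a⁻¹) = q⁻¹ * k⁻¹ * a * k * (q * a⁻¹) := by group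
      _ = _ := by
        rw [mem_cent.1 (inv_mem (hc ha)) q hq]; group
  have h2 : ∀ a ∈ A, a ∈ 𝐂[b.L] ∨ a * b.z ∈ 𝐂[b.L] := by
    intro a ha
    have h3 := b.outE a (hN (hA ha)) (b.norm_of fun p hp => ⟨p, hp, h1 a ha p⟩)
    obtain ⟨l, hl, k, hk, rfl⟩ := (mem_sup_norm' (norm_cent le_normalizer)).1 h3
    have h4 : ∀ p, l * b.ι p * l⁻¹ = b.ι p := fun p => by
      rw [← h1 _ ha p]
      calc l * (l * k * b.ι p * (l * k)⁻¹) * l⁻¹ = _ := by rw [h1 _ ha p]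
        _ = l * (b.ι p * k) * k⁻¹ * l⁻¹ := by group
        _ = _ := by rw [mem_cent.1 hk _ (b.ιL p)]; group
    obtain ⟨p, hp, e1⟩ := b.cE l hl fun p _ => mul_inv_eq_iff_eq_mul.1 (h4 p)
    have h5 : ∀ q, p * q = q * p := fun q => by
      rw [← b.ι_eq, map_mul, map_mul]
      calc b.ι p * b.ι q = l⁻¹ * (l * b.ι p * b.ι q) := by group
        _ = l⁻¹ * (b.ι q * l) * b.ι p := by rw [← mem_cent.1 e1 _ (b.ιL q)]; group
        _ = _ := by rw [← mul_inv_eq_iff_eq_mul.1 (h4 q)]; group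
    rcases center_eq p (h5 _) (h5 _) (h5 _) with rfl | rfl
    · rw [map_one, mul_one] at e1
      exact .inl (mul_mem e1 hk)
    · refine .inr ?_
      rw [mul_assoc, ← mem_cent.1 hk _ b.z_L, ← mul_assoc]
      exact mul_mem e1 hk
  have h6 := card_le_two_mul (A := A) (H := 𝐂[b.L]) fun a ha a' ha' => by
    rcases h2 a ha with h | h
    · exact .inl h
    rcases h2 a' ha' with h' | h'
    · exact .inr (.inl h')
    refine .inr (.inr ?_)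
    have := mul_mem h h'
    rwa [mul_assoc, mem_cent.1 h' _ b.z_L, mul_assoc a', b.z_sq, mul_one] at this
  rwa [hd, card_bot] at h6

end A2

open A2

theorem Bas.bound1 (b : Bas G) {Q A : Subgroup G} (hQ : IsPGroup 2 Q) (hN : Q ≤ 𝐍[b.L]) (hA : A ≤ Q) (hc : A ≤ 𝐂[Q])
    (h4 : 4 ≤ Nat.card A) (hd : A ⊓ 𝐂[b.L] = ⊥) : Nat.card Q ≤ 128 * Nat.card (Q ⊓ 𝐂[b.L] : Subgroup G) := by
  obtain ⟨Q1, hL, h1, e, hc1⟩ := exists_Q1 b.toLw (Q := Q ⊓ (b.L ⊔ 𝐂[b.L])) (hQ.to_le inf_le_left) inf_le_right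
  rw [inf_assoc, inf_eq_right.2 (le_sup_right : 𝐂[b.L] ≤ _)] at hc1
  have h2 := card_le b hN
  obtain ⟨g, hg, hT⟩ := b.sylT.conj_le h1 hL
  by_cases h3 : cj(g, Q1) = b.T
  · have hgL : g ∈ 𝐍[b.L] := le_normalizer hg
    have eK : cj(g, 𝐂[b.L]) = 𝐂[b.L] := cj_of_norm (norm_cent le_rfl hgL)
    have := aux b (Q := cj(g, Q)) (A := cj(g, A)) (cj_le_of_norm hN (norm_norm le_rfl hgL)) (cj_mono g hA)
      (cj_cent Q g ▸ cj_mono g hc) (by rw [← eK, ← cj_inf, hd, cj_bot]) (by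
        rw [← h3, ← eK, ← cj_sup]
        exact cj_mono g (le_sup_right.trans (e.ge.trans (sup_le_sup_left inf_le_left _))))
    rw [card_cj] at this
    omega
  · have h5 : Nat.card Q1 ≤ 64 := by
      have h6 := card_dvd_of_le hT
      have h7 : Nat.card cj(g, Q1) ≠ 128 := fun e' =>
        h3 (eq_of_le_of_card_ge hT (by rw [e', b.card_T]))
      rw [card_cj] at h6 h7
      rw [b.card_T] at h6
      obtain ⟨c, hc⟩ := h6
      rcases c with _ | _ | c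
      · omega
      · omega
      · nlinarith
    calc Nat.card Q ≤ 2 * (Nat.card Q1 * _) := hc1 ▸ h2
      _ ≤ 2 * (64 * _) := by gcongr
      _ = _ := by ring

theorem Bas.bound2 (b : Bas G) {W : Subgroup G} (h2 : ∀ g ∈ W, g * g = 1) (hN : W ≤ 𝐍[b.L]) (hd : W ⊓ 𝐂[b.L] = ⊥) :
    Nat.card W ≤ 32 := by
  have hW : IsPGroup 2 W := pg_iff.2 fun x hx => ⟨1, by rw [pow_one, sq, h2 x hx]⟩
  obtain ⟨Q1, hL, h1, e, hc1⟩ := exists_Q1 b.toLw (Q := W ⊓ (b.L ⊔ 𝐂[b.L])) (hW.to_le inf_le_left) inf_le_right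
  rw [inf_assoc, inf_eq_right.2 (le_sup_right : 𝐂[b.L] ≤ _), hd, card_bot, mul_one] at hc1
  have h3 := card_le b hN
  obtain ⟨g, hg, hT⟩ := b.sylT.conj_le h1 hL
  have h4 : ∀ l ∈ Q1, l * l = 1 := fun l hl => by
    have hK : W ⊓ (b.L ⊔ 𝐂[b.L]) ≤ 𝐍[𝐂[b.L]] := inf_le_right.trans (norm_LK _)
    obtain ⟨k, hk, q, hq, rfl⟩ := (mem_sup_norm hK).1 (e.ge (mem_sup_right hl))
    obtain ⟨n, hn⟩ := two_elt h1 (mul_mem hl hl)
    refine b.two_one (hL (mul_mem hl hl)) hn ?_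
    have := mul_mem hk (conj_mem_of_norm (hK hq) hk)
    rwa [inv_eq_of_mul_eq_one_right (h2 q hq.1), ← mul_assoc, ← mul_assoc, mul_assoc (k * q)] at this
  have h5 := b.card_le_sixteen hT fun x hx => by
    have := h4 _ (mem_cj.1 hx)
    calc x * x = g * (g⁻¹ * x * g * (g⁻¹ * x * g)) * g⁻¹ := by group
      _ = 1 := by rw [this]; group
  rw [card_cj] at h5
  omega

end Cfsg.Agent.Std.W
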