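import Mathlib
import Cfsg.Agent.Std.WA2
import Cfsg.Agent.GT.FourGroup
import Cfsg.Agent.GT.Quasisimple

/-!
# A standard subgroup of type `M₂₃` or `McL`: four does not divide the order of `C(L)`
-/

set_option autoImplicit false

namespace Cfsg.Agent.Std.W

open Cfsg.Agent.GT Cfsg.Agent.Loc.Mss Cfsg.Agent.Wr Subgroup
open scoped commutatorElement

universe u

variable {G : Type u} [Group G] [Finite G]

namespace A3

/-- The second root subgroup. -/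
def Y0 : Subgroup T0 where
  carrier := {p | p.a = 0 ∧ p.c = 0 ∧ p.e = false}
  mul_mem' := fun {p q} => (by decide +kernel : ∀ p q : T0, p.a = 0 ∧ p.c = 0 ∧ p.e = false →
    q.a = 0 ∧ q.c = 0 ∧ q.e = false → (p * q).a = 0 ∧ (p * q).c = 0 ∧ (p * q).e = false) p q
  one_mem' := ⟨rfl, rfl, rfl⟩
  inv_mem' := fun {p} => (by decide +kernel : ∀ p : T0, p.a = 0 ∧ p.c = 0 ∧ p.e = false →
    p⁻¹.a = 0 ∧ p⁻¹.c = 0 ∧ p⁻¹.e = false) p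

theorem card_Y0 : Nat.card Y0 = 4 := by
  rw [card_of_equiv (H := Y0) y (fun a b e => congrArg T0.b e)
    (fun p => (by decide +kernel : ∀ p : T0, (p.a = 0 ∧ p.c = 0 ∧ p.e = false) ↔ ∃ v, y v = p) p)]
  rw [Nat.card_eq_fintype_card]; decide +kernel

theorem Y0_le : Y0 ≤ F0 := fun _ h => ⟨h.1, h.2.2⟩

theorem Y0_fact : ∀ ε, ∀ p : T0, p.a = 0 ∧ p.c = 0 ∧ p.e = false → p ≠ 1 →
    rho 1 om p * p⁻¹ ≠ 1 ∧ rho 1 om p * p⁻¹ ∈ F0 ∧ aF ε (rho 1 om p * p⁻¹) = rho 1 om p * p⁻¹ := by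
  decide +kernel

theorem c1 : ∀ b ∈ J0, b ∉ Z0 → ∃ p, p * b * p⁻¹ * b⁻¹ = w om := by decide +kernel
theorem c2 : ∀ b : T0, b ∉ J0 → x om * b * (x om)⁻¹ * b⁻¹ ∈ J0 ∧ x om * b * (x om)⁻¹ * b⁻¹ ∉ Z0 := by
  decide +kernel

/-- The commutator of `n3` with `w om`. -/
def e0 : T0 := ev true [5, 3, 1, 5] (w om) * (w om)⁻¹

theorem e0_eq : ev true [5, 3, 1, 5] (w 1 * w om) * (w 1 * w om)⁻¹ = e0 := by decide +kernel

theorem e0_gen : ∀ p ∈ E0, ∃ b, p = y b * e0 * (y b)⁻¹ * e0⁻¹ ∨ p = y b * e0 * (y b)⁻¹ ∨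
    p = y b * (fi * e0 * fi⁻¹) * (y b)⁻¹ ∨ p = y b * e0 * (y b)⁻¹ * (fi * e0 * fi⁻¹) := by
  decide +kernel

omit [Finite G] in
theorem nn (b : Bas G) (g : G) : 𝐍[cj(g, 𝐂[b.L])] = cj(g, 𝐍[b.L]) := by
  rw [← cj_norm]; exact congrArg _ b.std.2.2.2.symm

theorem ti0 (b : Bas G) {g : G} (hg : g ∉ 𝐍[b.L]) {P : Subgroup G} (hP : IsPGroup 2 P) (h1 : P ≤ 𝐂[b.L])
    (h2 : P ≤ cj(g, 𝐂[b.L])) : P = ⊥ :=
  eq_bot_of_coprime hP (le_inf h1 h2)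
    (Nat.coprime_two_right.2 (b.std.2.1.2 g (b.std.2.2.2 ▸ hg)))

omit [Finite G] in
theorem ti1 (b : Bas G) {g u n : G} (h2 : u * u = 1) (h1 : u ≠ 1) (hu : u ∈ cj(g, 𝐂[b.L]))
    (hn : n⁻¹ * u * n ∈ cj(g, 𝐂[b.L])) : n ∈ 𝐍[cj(g, 𝐂[b.L])] := by
  rw [← cj_norm, mem_cj]
  refine b.std.2.1.mem_normalizer (u := g⁻¹ * u * g) ?_ (mem_cj.1 hu) ?_
  · refine orderOf_eq_prime ?_ fun e => h1 ?_
    · calc (g⁻¹ * u * g) ^ 2 = g⁻¹ * (u * u) * g := by rw [sq]; group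
        _ = 1 := by rw [h2]; group
    · calc u = g * (g⁻¹ * u * g) * g⁻¹ := by group
        _ = 1 := by rw [e]; group
  · have := mem_cj.1 hn
    rwa [show (g⁻¹ * n * g)⁻¹ * (g⁻¹ * u * g) * (g⁻¹ * n * g) = g⁻¹ * (n⁻¹ * u * n) * g by group]

omit [Finite G] in
theorem ti2 (b : Bas G) {g u n : G} (h2 : u * u = 1) (h1 : u ≠ 1) (hu : u ∈ cj(g, 𝐂[b.L]))
    (hn : u * n = n * u) : n ∈ 𝐍[cj(g, 𝐂[b.L])] :=
  ti1 b h2 h1 hu (by rwa [mul_assoc, hn, inv_mul_cancel_left])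

theorem bound1' (b : Bas G) (g : G) {Q A : Subgroup G} (hQ : IsPGroup 2 Q) (hN : Q ≤ 𝐍[cj(g, 𝐂[b.L])])
    (hA : A ≤ Q) (hc : A ≤ 𝐂[Q]) (h4 : 4 ≤ Nat.card A) (hd : A ⊓ cj(g, 𝐂[b.L]) = ⊥) :
    Nat.card Q ≤ 128 * Nat.card (Q ⊓ cj(g, 𝐂[b.L]) : Subgroup G) := by
  have := b.bound1 (pg_cj hQ g⁻¹) (le_cj_iff_inv_le.1 (nn b g ▸ hN)) (cj_mono _ hA)
    (cj_cent Q g⁻¹ ▸ cj_mono _ hc) (by rwa [card_cj])
    (by rw [← cj_inv_cj 𝐂[b.L] g, ← cj_inf, hd, cj_bot])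
  rwa [← cj_inv_cj 𝐂[b.L] g, ← cj_inf, card_cj, card_cj] at this

theorem bound2' (b : Bas G) (g : G) {W : Subgroup G} (h2 : ∀ v ∈ W, v * v = 1)
    (hN : W ≤ 𝐍[cj(g, 𝐂[b.L])]) (hd : W ⊓ cj(g, 𝐂[b.L]) = ⊥) : Nat.card W ≤ 32 := by
  have := b.bound2 (W := cj(g⁻¹, W)) (fun v hv => by
      have := h2 _ (mem_cj.1 hv)
      calc v * v = g⁻¹ * (g⁻¹⁻¹ * v * g⁻¹ * (g⁻¹⁻¹ * v * g⁻¹)) * g := by group
        _ = 1 := by rw [this]; group) (le_cj_iff_inv_le.1 (nn b g ▸ hN))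
    (by rw [← cj_inv_cj 𝐂[b.L] g, ← cj_inf, hd, cj_bot])
  rwa [card_cj] at this

theorem exists_A {K : Subgroup G} {k : G} (hk : k ∈ K) (kk : k * k = 1) (h4 : 4 ∣ Nat.card K) :
    ∃ A ≤ K, Nat.card A = 4 ∧ A ≤ 𝐂[A] ∧ k ∈ A := by
  obtain ⟨n, hn, e⟩ := (Nat.dvd_prime_pow Nat.prime_two (m := 1)).1
    (orderOf_dvd_of_pow_eq_one (x := (⟨k, hk⟩ : K)) (Subtype.ext (by simpa [sq] using kk)))
  obtain ⟨A, hA, hle⟩ := Sylow.exists_subgroup_card_pow_prime_le 2 (n := n) (m := 2) h4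
    (zpowers (⟨k, hk⟩ : K)) (by rw [Nat.card_zpowers, e]) (by omega)
  have hc := IsPGroup.isMulCommutative_of_card_eq_prime_sq (p := 2) hA
  refine ⟨A.map K.subtype, map_subtype_le _, by rw [card_map_of_injective K.subtype_injective, hA]; rfl,
    ?_, ⟨_, hle (mem_zpowers _), rfl⟩⟩
  rintro _ ⟨a, ha, rfl⟩
  rw [mem_cent]
  rintro _ ⟨a', ha', rfl⟩
  exact congrArg (fun v : A => ((v : K) : G)) (hc.is_comm.comm ⟨a', ha'⟩ ⟨a, ha⟩)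

omit [Finite G] in
theorem card_prod (s : Lw G) {B A : Subgroup G} (hB : B ≤ s.T) (hA : A ≤ 𝐂[s.L]) :
    Nat.card (B ⊔ A : Subgroup G) = Nat.card B * Nat.card A := by
  have h1 := PG.card_sup_mul_card_inf (norm_of_cent (cent_comm (hA.trans (cent_anti (hB.trans s.T_le)))))
  have h2 : B ⊓ A = ⊥ := (eq_bot_iff_forall _).2 fun v hv => by
    obtain ⟨n, hn⟩ := two_elt s.pgT (hB hv.1)
    exact s.two_one (s.T_le (hB hv.1)) hn (hA hv.2)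
  rwa [h2, card_bot, mul_one] at h1

variable {b : Bas G} {g t k : G}

omit [Finite G] in
theorem zk_sq (h : b.Pair g t k) : b.z * k * (b.z * k) = 1 := by
  rw [mul_assoc, ← mul_assoc k, ← mem_cent.1 h.kK _ b.z_L, mul_assoc, h.kk, mul_one, b.z_sq]

omit [Finite G] in
theorem zk_ne (h : b.Pair g t k) : b.z * k ≠ 1 := fun e =>
  b.z_ne (b.two_one b.z_L (n := 1) (by rw [pow_one, sq, b.z_sq])
    (by rw [eq_inv_of_mul_eq_one_left e]; exact inv_mem h.kK))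

omit [Finite G] in
theorem cz (h : b.Pair g t k) {n : G} (h1 : b.z * n = n * b.z) (h2 : k * n = n * k) :
    n ∈ 𝐍[cj(g, 𝐂[b.L])] :=
  ti2 b (zk_sq h) (zk_ne h) h.mem (by rw [mul_assoc, h2, ← mul_assoc, h1, mul_assoc])

theorem exists_b (h : b.Pair g t k) (h4 : 4 ∣ Nat.card 𝐂[b.L]) :
    ∃ p, p ≠ 1 ∧ p ≠ w 1 ∧ ∃ a ∈ 𝐂[b.L], k * a = a * k ∧ b.ι p * a ∈ cj(g, 𝐂[b.L]) := by
  obtain ⟨A, hA, c4, hc, hk⟩ := exists_A h.kK h.kk h4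
  have pA : IsPGroup 2 A := IsPGroup.of_card (n := 2) c4
  have hTA : A ≤ 𝐂[b.T] := hA.trans (cent_anti b.T_le)
  have hd : A ⊓ cj(g, 𝐂[b.L]) = ⊥ :=
    ti0 b h.nn (pA.to_le inf_le_left) (inf_le_left.trans hA) inf_le_right
  have h1 := bound1' b g (Q := b.T ⊔ A) (pg_sup' b.pgT pA (norm_of_cent hTA))
    (sup_le (by
      rintro _ ⟨p, rfl⟩
      exact cz h (b.z_comm p) (mem_cent.1 h.kK _ (b.ιL p)).symm)
      fun a ha => cz h (mem_cent.1 (hA ha) _ b.z_L) (mem_cent.1 (hc ha) _ hk))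
    le_sup_right (le_cent_sup hTA hc) c4.ge hd
  rw [card_prod b.toLw le_rfl hA, b.card_T, c4] at h1
  by_contra hn
  push Not at hn
  have h2 : ∀ u ∈ (b.T ⊔ A) ⊓ cj(g, 𝐂[b.L]), u ∈ A ∨ b.z * u ∈ A := by
    rintro u ⟨hu, hu'⟩
    obtain ⟨_, ⟨p, rfl⟩, a, ha, rfl⟩ := (mem_sup_norm (norm_of_cent hTA)).1 hu
    by_cases e1 : p = 1
    · rw [e1, map_one, one_mul]; exact .inl ha
    by_cases e2 : p = w 1
    · refine .inr ?_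
      rw [e2, ← mul_assoc]
      erw [b.z_sq]
      rwa [one_mul]
    exact absurd hu' (hn p e1 e2 a (hA ha) (mem_cent.1 (hc ha) _ hk))
  have h3 := card_le_two_mul (A := (b.T ⊔ A) ⊓ cj(g, 𝐂[b.L])) (H := A) fun u hu u' hu' => by
    rcases h2 u hu with e | e
    · exact .inl e
    rcases h2 u' hu' with e' | e'
    · exact .inr (.inl e')
    refine .inr (.inr ?_)
    have := mul_mem e e'
    rwa [← mul_assoc, ← mem_cent.1 (hA e) _ b.z_L, ← mul_assoc, b.z_sq, one_mul] at this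
  rw [inf_assoc, inf_comm _ A, hd, inf_bot_eq, card_bot] at h3
  omega

theorem E_le (a7 : b.εE = true) (h : b.Pair g t k) (h4 : 4 ∣ Nat.card 𝐂[b.L]) :
    b.E ≤ cj(g, 𝐂[b.L]) := by
  obtain ⟨p, p1, pz, a, ha, -, hm⟩ := exists_b h h4
  have hz : ∀ l ∈ b.L, b.z * l = l * b.z → l ∈ 𝐍[cj(g, 𝐂[b.L])] := fun l hl e =>
    cz h e (mem_cent.1 h.kK _ hl).symm
  have hT : ∀ q, b.ι q ∈ 𝐍[cj(g, 𝐂[b.L])] := fun q => hz _ (b.ιL q) (b.z_comm q)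
  -- the property of `B1`
  let B : T0 → Prop := fun q => ∀ l ∈ b.L, b.z * l = l * b.z →
    l * b.ι q * l⁻¹ * (b.ι q)⁻¹ ∈ cj(g, 𝐂[b.L])
  have hD : ∀ q, b.ι q ∈ cj(g, 𝐂[b.L]) → B q := fun q hq l hl e =>
    mul_mem (conj_mem_of_norm (hz l hl e) hq) (inv_mem hq)
  have hB : ∀ q, B q → ∀ r, B (r * q * r⁻¹ * q⁻¹) := fun q hq r => hD _ (by
    simpa using hq _ (b.ιL r) (b.z_comm r))
  have Bp : B p := fun l hl e => by
    have := mul_mem (conj_mem_of_norm (hz l hl e) hm) (inv_mem hm)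
    rwa [show l * (b.ι p * a) * l⁻¹ * (b.ι p * a)⁻¹ = l * b.ι p * (a * l⁻¹) * a⁻¹ * (b.ι p)⁻¹ by group,
      ← mem_cent.1 ha _ (inv_mem hl), ← mul_assoc, mul_inv_cancel_right] at this
  have h1 : ∀ q ∈ J0, q ∉ Z0 → B q → B (w om) := fun q h1 h2 hq => by
    obtain ⟨r, e⟩ := c1 q h1 h2
    exact e ▸ hB q hq r
  have h2 : B (w om) ∨ B (w 1 * w om) := by
    by_cases e1 : p ∈ Z0
    · rcases Z_cases p e1 with e | e | e | e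
      exacts [absurd e p1, absurd e pz, .inl (e ▸ Bp), .inr (e ▸ Bp)]
    by_cases e2 : p ∈ J0
    · exact .inl (h1 p e2 e1 Bp)
    · exact .inl (h1 _ (c2 p e2).1 (c2 p e2).2 (hB p Bp _))
  have nL := b.NE_le_L (b.wd_mem [5, 3, 1, 5])
  have nz : b.z * b.wd [5, 3, 1, 5] = b.wd [5, 3, 1, 5] * b.z := by
    have := b.wd_act [5, 3, 1, 5] (Z0_leE (w_mem 1))
    rw [a7, ev_n3.1] at this
    exact (mul_inv_eq_iff_eq_mul.1 this).symm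
  have h3 : b.ι e0 ∈ cj(g, 𝐂[b.L]) := by
    rcases h2 with e | e
    · have := e _ nL nz
      rwa [b.wd_act _ (Z0_leE (w_mem _)), a7, ← map_inv, ← map_mul] at this
    · have := e _ nL nz
      rwa [b.wd_act _ (Z0_leE (mul_mem (w_mem _) (w_mem _))), a7, ← map_inv, ← map_mul, e0_eq] at this
  have h4 : ∀ q r, b.ι q ∈ cj(g, 𝐂[b.L]) → b.ι (r * q * r⁻¹) ∈ cj(g, 𝐂[b.L]) := fun q r hq =>
    b.ι_conj r q ▸ conj_mem_of_norm (hT r) hq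
  rintro _ ⟨q, hq, rfl⟩
  obtain ⟨c, e | e | e | e⟩ := e0_gen q hq
  · rw [e, map_mul, map_inv]; exact mul_mem (h4 _ _ h3) (inv_mem h3)
  · rw [e]; exact h4 _ _ h3
  · rw [e]; exact h4 _ _ (h4 _ _ h3)
  · rw [e, map_mul]; exact mul_mem (h4 _ _ h3) (h4 _ _ h3)

theorem y_notMem (h : b.Pair g t k) (hE : b.E ≤ cj(g, 𝐂[b.L])) {p : T0} (hp : p ∈ Y0) (p1 : p ≠ 1)
    {a : G} (ha : a ∈ 𝐂[b.L]) : b.ι p * a ∉ cj(g, 𝐂[b.L]) := by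
  intro hm
  have hNE : b.NE ≤ 𝐍[cj(g, 𝐂[b.L])] := fun n hn =>
    ti1 b b.z_sq b.z_ne (hE b.z_E) (hE (conj_mem_of_norm' (b.NE_norm hn) b.z_E))
  obtain ⟨f1, f2, f3⟩ := Y0_fact b.εF p hp p1
  have h1 : b.ι (rho 1 om p * p⁻¹) ∈ cj(g, 𝐂[b.L]) := by
    have := mul_mem (conj_mem_of_norm (hNE (b.P_le_NE b.r1P)) hm) (inv_mem hm)
    rwa [show b.r1 * (b.ι p * a) * b.r1⁻¹ * (b.ι p * a)⁻¹ =
        b.r1 * b.ι p * (a * b.r1⁻¹) * a⁻¹ * (b.ι p)⁻¹ by group,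
      ← mem_cent.1 ha _ (inv_mem b.r1L), ← mul_assoc, mul_inv_cancel_right,
      b.act1 p (F0_le (Y0_le hp)), ← map_inv, ← map_mul] at this
  have h2 : b.hF ∈ 𝐍[cj(g, 𝐂[b.L])] := by
    refine ti2 b (b.sq_F (b.ι_F.2 f2)) (mt b.ι_eq_one.1 f1) h1 ?_
    have := b.actF _ f2
    rw [f3] at this
    exact (mul_inv_eq_iff_eq_mul.1 this).symm
  have h3 : b.L ≤ 𝐍[cj(g, 𝐂[b.L])] := b.gen.trans (sup_le hNE (b.NF_le (b.P_le_NE.trans hNE) h2))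
  rcases IsQuasisimple.le_or_inf_le_centralizer b.std.1 h3 with e | e
  · refine b.std.2.2.1 g (fun e' => h.nn (cj_eq_iff.1 e')) (comm_eq_bot_iff.2 ?_)
    rwa [cj_cent] at e
  · exact b.z_ne (b.two_one b.z_L (n := 1) (by rw [pow_one, sq, b.z_sq]) (e ⟨hE b.z_E, b.z_L⟩))

end A3

open A3

theorem Bas.Pair.not_four {b : Bas G} (a7 : b.εE = true) {g t k : G} (h : b.Pair g t k) :
    ¬ 4 ∣ Nat.card 𝐂[b.L] := by
  intro h4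
  have hE := E_le a7 h h4
  have hA : cj(g⁻¹, b.E) ≤ 𝐂[b.L] := le_cj_iff_inv_le.1 hE
  have hY : Y0.map b.ι ≤ b.T := map_le_range _ _
  have hc : cj(g⁻¹, b.E) ≤ 𝐂[Y0.map b.ι] := hA.trans (cent_anti (hY.trans b.T_le))
  have sA : ∀ a ∈ cj(g⁻¹, b.E), a * a = 1 := fun a ha => by
    have := b.sq_E (mem_cj.1 ha)
    calc a * a = g⁻¹ * (g⁻¹⁻¹ * a * g⁻¹ * (g⁻¹⁻¹ * a * g⁻¹)) * g := by group
      _ = 1 := by rw [this]; group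
  have h1 := bound2' b g (W := Y0.map b.ι ⊔ cj(g⁻¹, b.E)) (fun v hv => by
      obtain ⟨_, ⟨p, hp, rfl⟩, a, ha, rfl⟩ := (mem_sup_norm (norm_of_cent hc)).1 hv
      rw [mul_assoc, ← mul_assoc a, ← mem_cent.1 (hA ha) _ (b.ιL p), mul_assoc, sA a ha, mul_one]
      exact b.sq_F (b.ι_F.2 (Y0_le hp)))
    (sup_le (by
      rintro _ ⟨p, -, rfl⟩
      exact ti2 b b.z_sq b.z_ne (hE b.z_E) (b.z_comm p))
      fun a ha => ti2 b b.z_sq b.z_ne (hE b.z_E) (mem_cent.1 (hA ha) _ b.z_L))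
    ((eq_bot_iff_forall _).2 fun v hv => by
      obtain ⟨_, ⟨p, hp, rfl⟩, a, ha, rfl⟩ := (mem_sup_norm (norm_of_cent hc)).1 hv.1
      by_cases p1 : p = 1
      · have h2 := hv.2
        rw [p1, map_one, one_mul] at h2 ⊢
        have := ti0 b h.nn (P := zpowers a)
          ((pg_iff.2 fun v hv => ⟨1, by rw [pow_one, sq, sA v hv]⟩).to_le (zpowers_le.2 ha))
          (zpowers_le.2 (hA ha)) (zpowers_le.2 h2)
        exact zpowers_eq_bot.1 this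
      · exact absurd hv.2 (y_notMem h hE hp p1 (hA ha)))
  rw [card_prod b.toLw hY hA, card_cj, b.card_E, b.card_map, card_Y0] at h1
  omega

end Cfsg.Agent.Std.W
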