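import Mathlib
import Cfsg.Agent.Std.WAct
import Cfsg.Agent.Wr.Pre

/-!
# The double of `E`: the abelian subgroup
-/

set_option autoImplicit false

namespace Cfsg.Agent.Std.W

open Cfsg.Agent.Loc.Mss Cfsg.Agent.Wr Subgroup
open scoped commutatorElement

universe u

variable {G : Type u} [Group G]

namespace DblA

theorem act1' (s : Lw G) {p : T0} (hp : p ∈ J0) : s.r1⁻¹ * s.ι p * s.r1 = s.ι (rho 1 om (rho 1 om p)) := by
  have := s.act1 _ (rho1_J _ (rho1_J _ hp))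
  rw [rho1_cube] at this
  rw [← this]; group

theorem act2' (s : Lw G) {p : T0} (hp : p ∈ J0) : s.r2⁻¹ * s.ι p * s.r2 = s.ι (rho om 1 (rho om 1 p)) := by
  have := s.act2 _ (rho2_J _ (rho2_J _ hp))
  rw [rho2_cube] at this
  rw [← this]; group

theorem E0_ind {A : T0 → Prop} (hm : ∀ p q, A p → A q → A (p * q)) (hr : ∀ p ∈ E0, A p → A (rho om 1 p))
    (h1 : A (x 1)) (h2 : A (w 1)) : ∀ p ∈ E0, A p := fun p hp => by
  have k : ∀ u ∈ E0, A u → ∀ v, v = u * u ∨ v = u ∨ v = rho om 1 u ∨ v = rho om 1 (rho om 1 u) → A v := by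
    rintro u hu h v (rfl | rfl | rfl | rfl)
    exacts [hm _ _ h h, h, hr _ hu h, hr _ (rho2_E _ hu) (hr _ hu h)]
  rw [(by decide +kernel : ∀ p ∈ E0, p = x p.a * w p.c) p hp]
  exact hm _ _ (k _ (x_mem 1) h1 _ ((by decide +kernel : ∀ a, x a = x 1 * x 1 ∨ x a = x 1 ∨ x a = rho om 1 (x 1) ∨
      x a = rho om 1 (rho om 1 (x 1))) _))
    (k _ (Z0_leE (w_mem 1)) h2 _ ((by decide +kernel : ∀ a, w a = w 1 * w 1 ∨ w a = w 1 ∨ w a = rho om 1 (w 1) ∨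
      w a = rho om 1 (rho om 1 (w 1))) _))

/-- The norm of `d` with respect to an element of order three. -/
def nr (r d : G) : G := d * (r * d * r⁻¹) * (r⁻¹ * d * r)

theorem nr_conj (r n d : G) : nr r (n * d * n⁻¹) = n * nr (n⁻¹ * r * n) d * n⁻¹ := by
  simp only [nr]; group

section

variable {t : G} {V : Subgroup G} (h : Pre t V)
include h

theorem swap {u a b v : G} (hu : u ∈ h.Dt) (ha : a ∈ h.Dt) (hb : b ∈ h.Dt) (e : u * (a * (b * v)) ∈ V) :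
    u * (b * (a * v)) ∈ V := by
  have h1 := h.comm_mem hb ha
  have h2 := mul_mem h1 e
  rw [← mul_assoc, ← hu.1 _ h1, commutatorElement_def] at h2
  simpa only [mul_assoc, inv_mul_cancel_left] using h2

theorem mix {a a1 a2 b b1 b2 : G} (ha : a ∈ h.Dt) (ha1 : a1 ∈ h.Dt) (ha2 : a2 ∈ h.Dt) (hb : b ∈ h.Dt)
    (hb1 : b1 ∈ h.Dt) (e : a * a1 * a2 * (b * b1 * b2) ∈ V) : a * b * (a1 * b1) * (a2 * b2) ∈ V := by
  have e1 : a * a1 * (b * (a2 * (b1 * b2))) ∈ V := swap h (mul_mem ha ha1) ha2 hb (by simpa only [mul_assoc] using e)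
  have e2 : a * (b * (a1 * (a2 * (b1 * b2)))) ∈ V := swap h ha ha1 hb (by simpa only [mul_assoc] using e1)
  have e3 : a * b * a1 * (b1 * (a2 * b2)) ∈ V :=
    swap h (mul_mem (mul_mem ha hb) ha1) ha2 hb1 (by simpa only [mul_assoc] using e2)
  simpa only [mul_assoc] using e3

theorem nr_mul {r a b : G} (hr : r * t = t * r) (hV : r ∈ 𝐍[V]) (ha : a ∈ h.Dt) (hb : b ∈ h.Dt)
    (e : nr r a * nr r b ∈ V) : nr r (a * b) ∈ V := by
  have hr' : r⁻¹ * t = t * r⁻¹ := (Commute.inv_left hr).eq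
  have h1 := h.conj_mem hr' (inv_mem hV) ha
  rw [inv_inv] at h1
  have := mix h ha (h.conj_mem hr hV ha) h1 hb (h.conj_mem hr hV hb) e
  simpa only [nr, mul_assoc, inv_mul_cancel_left, mul_inv_cancel_left] using this

theorem nr_inv {r a : G} (hr : r * t = t * r) (hV : r ∈ 𝐍[V]) (ha : a ∈ h.Dt) (e : nr r a ∈ V) : nr r⁻¹ a ∈ V := by
  have hr' : r⁻¹ * t = t * r⁻¹ := (Commute.inv_left hr).eq
  have := swap h (v := 1) ha (h.conj_mem hr hV ha) (h.conj_mem hr' (inv_mem hV) ha)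
    (by simpa only [nr, mul_assoc, inv_inv, mul_one] using e)
  simpa only [nr, mul_assoc, inv_inv, mul_one] using this

theorem nr_t {r : G} (hr : r * t = t * r) : nr r t = t := by
  rw [nr, hr, mul_inv_cancel_right, mul_assoc r⁻¹, ← hr, inv_mul_cancel_left, h.tt, one_mul]

end

variable (c : Co G)

theorem pre : Pre c.t c.E where
  tt := c.tt
  tV _ hw := c.tc (c.T_le (c.E_le_T hw))
  comm _ ha _ hb := c.comm_E ha hb
  sq _ ha := c.sq_E ha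
  nt h := c.tL (c.T_le (c.E_le_T h))
  cen g hg h := by
    have h1 : g ∈ 𝐍[c.E] := cent_le_norm _ (mem_cent.2 fun a ha => (h a ha).symm)
    rcases c.nE g hg h1 with h2 | h2
    · exact .inl (c.cenE h2 fun p hp => h _ (c.ι_E.2 hp))
    · refine .inr (c.cenE h2 fun p hp => ?_)
      rw [mul_assoc, ← c.tc (c.ιL p), ← mul_assoc, h _ (c.ι_E.2 hp), mul_assoc]

variable [Finite G]

theorem r2t : c.r2 * c.t = c.t * c.r2 := c.tc c.r2L
theorem r2N : c.r2 ∈ 𝐍[c.E] := c.P_norm_E c.r2P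

theorem nr_E {e : G} (he : e ∈ c.E) : nr c.r2 e = 1 := by
  obtain ⟨p, hp, rfl⟩ := he
  rw [nr, c.act2 _ (E0_le hp), act2' _ (E0_le hp), ← map_mul, ← map_mul, r2_norm p hp, map_one]

/-- The elements whose norm lies in `E`. -/
def D0 : Subgroup G where
  carrier := {d | d ∈ (pre c).Dt ∧ nr c.r2 d ∈ c.E}
  one_mem' := ⟨one_mem _, by rw [nr_E c (one_mem _)]; exact one_mem _⟩
  mul_mem' := fun {a b} ha hb => ⟨mul_mem ha.1 hb.1, nr_mul (pre c) (r2t c) (r2N c) ha.1 hb.1 (mul_mem ha.2 hb.2)⟩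
  inv_mem' := fun {a} ha => ⟨inv_mem ha.1, by
    have h1 := inv_mem ((pre c).sq_mem ha.1)
    have := nr_mul (pre c) (r2t c) (r2N c) ha.1 ((pre c).le_Dt h1) (by rw [nr_E c h1, mul_one]; exact ha.2)
    rwa [mul_inv_rev, mul_inv_cancel_left] at this⟩

theorem E_le : c.E ≤ D0 c := fun _ he => ⟨(pre c).le_Dt he, by rw [nr_E c he]; exact one_mem _⟩

theorem t_notMem : c.t ∉ D0 c := fun h => (pre c).nt (nr_t (pre c) (r2t c) ▸ h.2)

theorem r2_conj {d : G} (hd : d ∈ (pre c).Dt) : c.r2 * d * c.r2⁻¹ ∈ (pre c).Dt ∧ c.r2⁻¹ * d * c.r2 ∈ (pre c).Dt :=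
  ⟨(pre c).conj_mem (r2t c) (r2N c) hd, by
    simpa only [inv_inv] using (pre c).conj_mem (Commute.inv_left (r2t c)).eq (inv_mem (r2N c)) hd⟩

theorem mem_or {d : G} (hd : d ∈ (pre c).Dt) : d ∈ D0 c ∨ d * c.t ∈ D0 c := by
  obtain ⟨h1, h2⟩ := r2_conj c hd
  have h3 : ph c.t (nr c.r2 d) = 1 := by
    have h4 := ph_conj (Commute.inv_left (r2t c)).eq d
    rw [inv_inv] at h4
    rw [nr, (pre c).mul (mul_mem hd h1) h2, (pre c).mul hd h1, ph_conj (r2t c), h4]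
    exact nr_E c hd.2
  rcases (pre c).ker (mul_mem (mul_mem hd h1) h2) h3 with h4 | h4
  · exact .inl ⟨hd, h4⟩
  · refine .inr ⟨mul_mem hd (pre c).t_mem, nr_mul (pre c) (r2t c) (r2N c) hd (pre c).t_mem ?_⟩
    rwa [nr_t (pre c) (r2t c)]

theorem ker {d : G} (hd : d ∈ D0 c) (e : ph c.t d = 1) : d ∈ c.E :=
  ((pre c).ker hd.1 e).resolve_right fun h => t_notMem c ((mul_mem_cancel_left hd).1 (E_le c h))

theorem onto : ∀ e ∈ c.E, ∃ d ∈ D0 c, ph c.t d = e := by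
  suffices h : ∀ e ∈ c.E, ∃ d ∈ (pre c).Dt, ph c.t d = e by
    intro e he
    obtain ⟨d, hd, rfl⟩ := h e he
    rcases mem_or c hd with h1 | h1
    exacts [⟨d, h1, rfl⟩, ⟨_, h1, ph_mul_of_comm rfl d⟩]
  rintro _ ⟨q, hq, rfl⟩
  by_cases e : q = 1
  · exact ⟨1, one_mem _, by rw [ph_one c.tt, e, map_one]⟩
  obtain ⟨d, h1, p, hp, p1, h2⟩ := c.dE
  have h3 : ph c.t d = c.ι p := by rw [ph, h2, mul_assoc, c.tt, mul_one]
  have hd : d ∈ (pre c).Dt := ⟨by rintro _ ⟨p, hp, rfl⟩; exact h1 p hp, h3 ▸ c.ι_E.2 hp⟩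
  obtain ⟨n, hn, e1⟩ := c.transE hp p1
  obtain ⟨m, hm, e2⟩ := c.transE hq e
  have hk := mul_mem (inv_mem hm) hn
  refine ⟨_, (pre c).conj_mem (c.tc (c.NE_le_L hk)) (c.NE_norm hk) hd, ?_⟩
  rw [ph_conj (c.tc (c.NE_le_L hk)), h3]
  calc _ = m⁻¹ * (n * c.ι p * n⁻¹) * m := by group
    _ = _ := by rw [e1, ← e2]; group

theorem conj_mem {n : G} (hn : n ∈ c.P) (hr : n⁻¹ * c.r2 * n = c.r2 ∨ n⁻¹ * c.r2 * n = c.r2⁻¹) {d : G}
    (hd : d ∈ D0 c) : n * d * n⁻¹ ∈ D0 c := by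
  refine ⟨(pre c).conj_mem (c.tc (c.P_le_L hn)) (c.P_norm_E hn) hd.1, ?_⟩
  rw [nr_conj]
  refine conj_mem_of_norm (c.P_norm_E hn) ?_
  rcases hr with e | e <;> rw [e]
  exacts [hd.2, nr_inv (pre c) (r2t c) (r2N c) hd.1 hd.2]

theorem conj_r1 {d : G} (hd : d ∈ D0 c) : c.r1 * d * c.r1⁻¹ ∈ D0 c :=
  conj_mem c c.r1P (.inl (by rw [mul_assoc, ← c.r12, inv_mul_cancel_left])) hd

theorem conj_r2 {d : G} (hd : d ∈ D0 c) : c.r2 * d * c.r2⁻¹ ∈ D0 c := conj_mem c c.r2P (.inl (by group)) hd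

theorem y_r2 (s : Lw G) (b : K4) : s.r2 * s.ι (y b) = s.ι (y b) * s.r2 := by
  rw [← mul_inv_eq_iff_eq_mul, s.act2 _ (F0_le (y_mem b)), (by decide +kernel : ∀ b, rho om 1 (y b) = y b)]

theorem P_norm : c.P ≤ 𝐍[D0 c] := by
  have k : ∀ {n}, (∀ d ∈ D0 c, n * d * n⁻¹ ∈ D0 c) → n ∈ 𝐍[D0 c] := fun h => mem_norm_of_cj_le (cj_le_iff.2 h)
  refine c.P_le (c.T_le_of (le_normalizer (E_le c (c.ι_E.2 (x_mem _)))) (k fun d hd => ?_) (k fun d hd => ?_))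
    (k fun d hd => conj_r1 c hd) (k fun d hd => conj_r2 c hd)
  · exact conj_mem c (c.ιP _) (.inl (by rw [mul_assoc, y_r2, inv_mul_cancel_left])) hd
  · exact conj_mem c (c.ιP _) (.inr (by rw [← map_inv, inv_eq_of_mul_eq_one_right fi_sq, c.fi_r2])) hd

theorem same {a b : G} (ha : a ∈ D0 c) (hb : b ∈ D0 c) (e : ph c.t a = ph c.t b) : ∃ w ∈ c.E, b = a * w :=
  ⟨_, ker c (mul_mem (inv_mem ha) hb) (by
    rw [(pre c).mul (inv_mem ha.1) hb.1, (pre c).ph_inv ha.1, e, (pre c).sq _ hb.1.2]), by group⟩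

theorem comm_congr {a b b' : G} (ha : a ∈ D0 c) (hb : b ∈ D0 c) (hb' : b' ∈ D0 c) (e : ph c.t b = ph c.t b') :
    ⁅a, b⁆ = ⁅a, b'⁆ := by
  obtain ⟨v, hv, rfl⟩ := same c hb hb' e
  rw [(pre c).comm_mul_right ha.1 hb.1 ((pre c).le_Dt hv), (pre c).comm_V ha.1 hv, mul_one]

theorem comm_r2 {a b : G} (ha : a ∈ D0 c) (hb : b ∈ D0 c) :
    ⁅a, c.r2 * b * c.r2⁻¹⁆ = c.r2⁻¹ * ⁅a, b⁆ * c.r2 := by
  obtain ⟨a1, a2⟩ := r2_conj c ha.1
  obtain ⟨b1, b2⟩ := r2_conj c hb.1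
  have h1 := (pre c).comm_V ha.1 hb.2
  have h2 := (pre c).comm_V hb.1 ha.2
  rw [nr, (pre c).comm_mul_right ha.1 (mul_mem hb.1 b1) b2, (pre c).comm_mul_right ha.1 hb.1 b1] at h1
  rw [nr, (pre c).comm_symm hb.1 (mul_mem (mul_mem ha.1 a1) a2), (pre c).comm_mul_left (mul_mem ha.1 a1) a2 hb.1,
    (pre c).comm_mul_left ha.1 a1 hb.1,
    show ⁅c.r2 * a * c.r2⁻¹, b⁆ = c.r2 * ⁅a, c.r2⁻¹ * b * c.r2⁆ * c.r2⁻¹ by simp only [commutatorElement_def]; group,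
    show ⁅c.r2⁻¹ * a * c.r2, b⁆ = c.r2⁻¹ * ⁅a, c.r2 * b * c.r2⁻¹⁆ * c.r2 by simp only [commutatorElement_def]; group]
    at h2
  obtain ⟨p, hp, e1⟩ := (pre c).comm_mem ha.1 hb.1
  obtain ⟨q, hq, e2⟩ := (pre c).comm_mem ha.1 b1
  obtain ⟨q', hq', e3⟩ := (pre c).comm_mem ha.1 b2
  rw [← e1, ← e2, ← e3] at h1 h2
  rw [c.act2 _ (E0_le hq'), act2' _ (E0_le hq)] at h2
  rw [← map_mul, ← map_mul, c.ι_eq_one] at h1 h2
  rw [← e1, ← e2, act2' _ (E0_le hp), c.ι_eq]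
  exact (by decide +kernel : ∀ p ∈ E0, ∀ q ∈ E0, ∀ q' ∈ E0, p * q * q' = 1 →
    p * rho om 1 q' * rho om 1 (rho om 1 q) = 1 → q = rho om 1 (rho om 1 p)) p hp q hq q' hq' h1 h2

omit [Finite G] in
/-- Induction over a double of `E`. -/
theorem dbl_ind {D : Subgroup G} (hD : D ≤ (pre c).Dt) (hk : ∀ d ∈ D, ph c.t d = 1 → d ∈ c.E)
    (hr : ∀ d ∈ D, c.r2 * d * c.r2⁻¹ ∈ D) {A : G → Prop} (hm : ∀ d ∈ D, ∀ d' ∈ D, A d → A d' → A (d * d'))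
    (hE : ∀ e ∈ c.E, A e) (hA : ∀ d ∈ D, A d → A (c.r2 * d * c.r2⁻¹)) {a b : G} (ha : a ∈ D) (hb : b ∈ D)
    (ea : ph c.t a = c.ι (x 1)) (eb : ph c.t b = c.ι (w 1)) (h1 : A a) (h2 : A b) : ∀ d ∈ D, A d := fun d hd => by
  obtain ⟨p, hp, e⟩ := (hD hd).2
  obtain ⟨d', hd', e', h⟩ := E0_ind (A := fun p => ∃ d ∈ D, ph c.t d = c.ι p ∧ A d)
    (fun p q ⟨a, ha, e1, h1⟩ ⟨b, hb, e2, h2⟩ =>
      ⟨_, mul_mem ha hb, by rw [(pre c).mul (hD ha) (hD hb), e1, e2, map_mul], hm _ ha _ hb h1 h2⟩)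
    (fun p hp ⟨a, ha, e1, h1⟩ => ⟨_, hr a ha, by rw [ph_conj (c.tc c.r2L), e1, c.act2 _ (E0_le hp)], hA a ha h1⟩)
    ⟨a, ha, ea, h1⟩ ⟨b, hb, eb, h2⟩ p hp
  have h3 := mul_mem (inv_mem hd') hd
  have := hm _ hd' _ h3 h (hE _ (hk _ h3 (by
    rw [(pre c).mul (inv_mem (hD hd')) (hD hd), (pre c).ph_inv (hD hd'), e', e, (pre c).sq _ (hD hd).2])))
  rwa [mul_inv_cancel_left] at this

theorem ab : Ab c.t c.E (D0 c) := by
  refine ⟨pre c, E_le c, ?_, fun d hd => hd.1.2, onto c, t_notMem c⟩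
  obtain ⟨a, ha, ea⟩ := onto c _ (c.ι_E.2 (x_mem 1))
  obtain ⟨b, hb, eb⟩ := onto c _ (c.ι_E.2 (Z0_leE (w_mem 1)))
  have k : ∀ d ∈ D0 c, ⁅d, a⁆ = 1 → ⁅d, b⁆ = 1 → ∀ d' ∈ D0 c, ⁅d, d'⁆ = 1 := fun d hd h1 h2 =>
    dbl_ind c (D := D0 c) (fun _ h => h.1) (fun _ => ker c) (fun _ => conj_r2 c) (A := fun d' => ⁅d, d'⁆ = 1)
      (fun u hu v hv e1 e2 => by rw [(pre c).comm_mul_right hd.1 hu.1 hv.1, e1, e2, mul_one])
      (fun e he => (pre c).comm_V hd.1 he) (fun u hu e => by rw [comm_r2 c hd hu, e]; simp) ha hb ea eb h1 h2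
  have h0 : ⁅a, b⁆ = 1 := by
    have h1 := comm_r2 c ha hb
    have a1 := conj_r1 c ha
    have b1 := conj_r1 c hb
    have b2 := conj_r2 c hb
    rw [comm_congr c ha b2 b1 (by
        rw [ph_conj (r2t c), ph_conj (c.tc c.r1L), eb, c.act1 _ (E0_le (Z0_leE (w_mem 1))),
          c.act2 _ (E0_le (Z0_leE (w_mem 1))), c.ι_eq]; decide +kernel),
      (pre c).comm_symm ha.1 b1.1, comm_congr c b1 ha a1 (by
        rw [ph_conj (c.tc c.r1L), ea, c.act1 _ (E0_le (x_mem 1)), c.ι_eq]; decide +kernel),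
      (pre c).comm_symm b1.1 a1.1, ← conjugate_commutatorElement] at h1
    obtain ⟨p, hp, e1⟩ := (pre c).comm_mem ha.1 hb.1
    rw [← e1, c.act1 _ (E0_le hp), act2' _ (E0_le hp), c.ι_eq] at h1
    rw [← e1, (by decide +kernel : ∀ p ∈ E0, rho 1 om p = rho om 1 (rho om 1 p) → p = 1) p hp h1, map_one]
  have h1 := k a ha (by simp) h0
  have h2 := k b hb (by rw [(pre c).comm_symm hb.1 ha.1, h0]) (by simp)
  exact fun d hd d' hd' => commutatorElement_eq_one_iff_mul_comm.1 (k d hd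
    (by rw [(pre c).comm_symm hd.1 ha.1, h1 d hd]) (by rw [(pre c).comm_symm hd.1 hb.1, h2 d hd]) d' hd')

theorem fpf {d : G} (hd : d ∈ D0 c) : nr c.r2 d = 1 := by
  obtain ⟨p, hp, e⟩ := hd.2
  have h1 : c.r2 * nr c.r2 d * c.r2⁻¹ = nr c.r2 d := by
    have h2 : c.r2 * c.r2 = c.r2⁻¹ := eq_inv_of_mul_eq_one_left (by rw [← c.r2_cube, pow_three'])
    have h3 := conj_r2 c hd
    have h4 := conj_r2 c h3
    have h5 : c.r2 * (c.r2 * d * c.r2⁻¹) * c.r2⁻¹ = c.r2⁻¹ * d * c.r2 := by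
      calc _ = c.r2 * c.r2 * d * (c.r2 * c.r2)⁻¹ := by group
        _ = _ := by rw [h2, inv_inv]
    calc _ = c.r2 * d * c.r2⁻¹ * (c.r2 * (c.r2 * d * c.r2⁻¹) * c.r2⁻¹) * d := by rw [nr]; group
      _ = _ := by rw [(ab c).cm _ (mul_mem h3 h4) _ hd, h5, nr, ← mul_assoc]
  rw [← e, c.act2 _ (E0_le hp), c.ι_eq] at h1
  rw [← e, r2_fpf p hp h1, map_one]

end DblA

end Cfsg.Agent.Std.W
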