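import Mathlib
import Cfsg.Agent.Std.WEn

/-!
# A standard subgroup of type `M₂₃` or `McL`: the types of the elements normalising `J₁ × J₂`
-/

set_option autoImplicit false
set_option linter.unusedSectionVars false

namespace Cfsg.Agent.Std.W

open Cfsg.Agent.Loc.Mss Cfsg.Agent.Wr Subgroup

universe u

variable {G : Type u} [Group G] [Finite G]

namespace E1

theorem exV {A : Subgroup T0} (h : ∀ p ∈ A, p * p = 1) (hc : 16 ≤ Nat.card A) : ∃ ε, A = V ε :=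
  (el16 h hc).elim (fun e => ⟨true, e⟩) fun e => ⟨false, e⟩

theorem inf_V (a : Bool) : V (xor true a) ⊓ V (xor false a) = Z0 := by
  cases a
  · rfl
  · exact inf_comm _ _

/-- The order of `V a ⊓ V b`. -/
def kk (a b : Bool) : ℕ := cond (xor a b) 4 16

theorem card_inf (a b : Bool) : Nat.card (V a ⊓ V b : Subgroup T0) = kk a b := by
  cases a <;> cases b
  · rw [inf_idem]; exact card_V _
  · exact (congrArg (fun A : Subgroup T0 => Nat.card A) (inf_V true)).trans card_Z0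
  · exact card_Z0
  · rw [inf_idem]; exact card_V _

set_option synthInstance.maxSize 4096 in
theorem ex_d : ∀ a1 a2 a3 a4 b1 b2 b3 b4 : Bool, kk a1 a2 * kk b1 b2 = 64 → kk a1 a3 * kk b1 b3 = 64 →
    kk a1 a4 * kk b1 b4 = 16 → kk a2 a3 * kk b2 b3 = 16 →
    ∃ d : D8, (d.a1 true true = a1 ∧ d.a2 true true = b1) ∧ (d.a1 true false = a2 ∧ d.a2 true false = b2) ∧
      (d.a1 false true = a3 ∧ d.a2 false true = b3) ∧ (d.a1 false false = a4 ∧ d.a2 false false = b4) := by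
  decide +kernel

theorem z_comm : ∀ p ∈ Z0, ∃ a ∈ V true, ∃ b ∈ V false, p = a * b * a⁻¹ * b⁻¹ := fun p hp =>
  ⟨x 1, x_mem 1, y p.c, y_mem _, (by decide +kernel : ∀ p ∈ Z0, p = x 1 * y p.c * (x 1)⁻¹ * (y p.c)⁻¹) p hp⟩

theorem cm_pr (e : En G) {A B A' B' C D : Subgroup T0} (h1 : ∀ p ∈ A, ∀ q ∈ A', p * q * p⁻¹ * q⁻¹ ∈ C)
    (h2 : ∀ p ∈ B, ∀ q ∈ B', p * q * p⁻¹ * q⁻¹ ∈ D) {g h : G} (hg : g ∈ e.pr A B) (hh : h ∈ e.pr A' B') :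
    g * h * g⁻¹ * h⁻¹ ∈ e.pr C D := by
  obtain ⟨p, hp, q, hq, rfl⟩ := e.mem_pr.1 hg
  obtain ⟨p', hp', q', hq', rfl⟩ := e.mem_pr.1 hh
  rw [← map_inv, ← map_inv, ← map_mul, ← map_mul, ← map_mul]
  exact e.Θ_pr.2 ⟨h1 p hp p' hp', h2 q hq q' hq'⟩

theorem cmZ : ∀ p ∈ Z0, ∀ q ∈ J0, p * q * p⁻¹ * q⁻¹ ∈ (⊥ : Subgroup T0) := fun p hp q hq => by
  rw [mem_bot, comm_Z p hp q hq]; group

theorem cmZZ : ∀ p ∈ Z0, ∀ q ∈ Z0, p * q * p⁻¹ * q⁻¹ ∈ (⊥ : Subgroup T0) := fun p hp q hq =>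
  cmZ p hp q (E0_le (Z0_leE hq))

theorem cmT : ∀ p ∈ (⊤ : Subgroup T0), ∀ q ∈ Z0, p * q * p⁻¹ * q⁻¹ ∈ Z0 := fun p _ q hq =>
  mul_mem (Normal.conj_mem inferInstance q hq p) (inv_mem hq)

/-- Transport of a subgroup generated by commutators. -/
theorem trZ {n : G} {Z Z' Q : Subgroup G} {R : Bool → Subgroup G}
    (h1 : ∀ z ∈ Z, ∃ a ∈ R true, ∃ b ∈ R false, z = a * b * a⁻¹ * b⁻¹) (h2 : ∀ ε, cj(n, R ε) ≤ Q)
    (h3 : ∀ a ∈ Q, ∀ b ∈ Q, a * b * a⁻¹ * b⁻¹ ∈ Z') (h4 : Nat.card Z' ≤ Nat.card Z) : cj(n, Z) = Z' :=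
  eq_of_le_of_card_ge (cj_le_iff.2 fun z hz => by
    obtain ⟨a, ha, b, hb, rfl⟩ := h1 z hz
    have := h3 _ (h2 _ (conj_mem_cj ha)) _ (h2 _ (conj_mem_cj hb))
    simpa [mul_assoc] using this) (by rwa [card_cj])

theorem gen1 (e : En G) : ∀ z ∈ e.pr Z0 ⊥, ∃ a ∈ e.pr (V true) Z0, ∃ b ∈ e.pr (V false) Z0,
    z = a * b * a⁻¹ * b⁻¹ := fun z hz => by
  obtain ⟨p, hp, rfl⟩ := e.mem_pr1.1 hz
  obtain ⟨a, ha, b, hb, rfl⟩ := z_comm p hp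
  exact ⟨_, e.θ_pr.2 ha, _, e.θ_pr.2 hb, by simp⟩

theorem gen2 (e : En G) : ∀ z ∈ e.pr ⊥ Z0, ∃ a ∈ e.pr Z0 (V true), ∃ b ∈ e.pr Z0 (V false),
    z = a * b * a⁻¹ * b⁻¹ := fun z hz => by
  obtain ⟨p, hp, rfl⟩ := e.mem_pr2.1 hz
  obtain ⟨a, ha, b, hb, rfl⟩ := z_comm p hp
  exact ⟨_, e.θ2_pr.2 ha, _, e.θ2_pr.2 hb, by simp⟩

theorem c1 (e : En G) : ∀ a ∈ e.pr J0 Z0, ∀ b ∈ e.pr J0 Z0, a * b * a⁻¹ * b⁻¹ ∈ e.pr Z0 ⊥ := fun _ ha _ hb =>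
  cm_pr e comm_mem_Z cmZZ ha hb

theorem c2 (e : En G) : ∀ a ∈ e.pr Z0 J0, ∀ b ∈ e.pr Z0 J0, a * b * a⁻¹ * b⁻¹ ∈ e.pr ⊥ Z0 := fun _ ha _ hb =>
  cm_pr e cmZZ comm_mem_Z ha hb

theorem card12 (e : En G) : Nat.card (e.pr Z0 ⊥) = Nat.card (e.pr ⊥ Z0) := by
  rw [e.card_pr, e.card_pr, mul_comm]

/-- Transport of a subgroup defined by commutator conditions. -/
theorem tr {s : G} {S Q Q' Z Z' : Subgroup G} {R R' : Bool → Subgroup G} (hs : s ∈ 𝐍[S]) (hQ : Q ≤ S)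
    (h1 : ∀ g ∈ Q, ∀ ε, ∀ h ∈ R ε, g * h * g⁻¹ * h⁻¹ ∈ Z)
    (h2 : ∀ g ∈ S, (∀ ε, ∀ h ∈ R' ε, g * h * g⁻¹ * h⁻¹ ∈ Z') → g ∈ Q') (a : Bool)
    (hR : ∀ ε, cj(s, R ε) = R' (xor ε a)) (hZ : cj(s, Z) = Z') : cj(s, Q) ≤ Q' :=
  cj_le_iff.2 fun g hg => h2 _ (conj_mem_of_norm hs (hQ hg)) fun ε h hh => by
    have h3 : h ∈ cj(s, R (xor ε a)) := by rw [hR]; simpa using hh
    have := conj_mem_cj (g := s) (h1 g hg _ _ (mem_cj.1 h3))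
    rw [hZ] at this
    simpa [mul_assoc] using this

theorem memZ {b : T0} (h : ∀ ε, ∀ q ∈ V ε, b * q * b⁻¹ * q⁻¹ = 1) : b ∈ Z0 :=
  have k : ∀ ε, ∀ q ∈ V ε, b * q = q * b := fun ε q hq => by
    have := h ε q hq
    rwa [mul_inv_eq_one, mul_inv_eq_iff_eq_mul] at this
  mem_Z_of_cent b (k true _ (Z0_leE (w_mem _))) (k true _ (x_mem _)) (k false _ (y_mem _))

theorem p1 (e : En G) : ∀ g ∈ e.T1, ∀ ε, ∀ h ∈ e.pr Z0 (V ε), g * h * g⁻¹ * h⁻¹ ∈ e.pr Z0 ⊥ := fun _ hg _ _ hh =>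
  cm_pr e cmT (fun p hp q _ => by rw [mem_bot.1 hp]; simp) hg hh

theorem p2 (e : En G) : ∀ g ∈ e.T2, ∀ ε, ∀ h ∈ e.pr (V ε) Z0, g * h * g⁻¹ * h⁻¹ ∈ e.pr ⊥ Z0 := fun _ hg _ _ hh =>
  cm_pr e (fun p hp q _ => by rw [mem_bot.1 hp]; simp) cmT hg hh

theorem q1 (e : En G) : ∀ g ∈ e.S0, (∀ ε, ∀ h ∈ e.pr Z0 (V ε), g * h * g⁻¹ * h⁻¹ ∈ e.pr Z0 ⊥) → g ∈ e.pr ⊤ Z0 :=
  fun g hg h => by
    obtain ⟨a, b, rfl⟩ := e.mem_S0.1 hg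
    refine e.Θ_pr.2 ⟨trivial, memZ fun ε q hq => ?_⟩
    have := h ε _ (e.Θ_pr.2 ⟨one_mem _, hq⟩)
    rw [← map_inv, ← map_inv, ← map_mul, ← map_mul, ← map_mul] at this
    exact mem_bot.1 (e.Θ_pr.1 this).2

theorem q2 (e : En G) : ∀ g ∈ e.S0, (∀ ε, ∀ h ∈ e.pr (V ε) Z0, g * h * g⁻¹ * h⁻¹ ∈ e.pr ⊥ Z0) → g ∈ e.pr Z0 ⊤ :=
  fun g hg h => by
    obtain ⟨a, b, rfl⟩ := e.mem_S0.1 hg
    refine e.Θ_pr.2 ⟨memZ fun ε q hq => ?_, trivial⟩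
    have := h ε _ (e.Θ_pr.2 ⟨hq, one_mem _⟩)
    rw [← map_inv, ← map_inv, ← map_mul, ← map_mul, ← map_mul] at this
    exact mem_bot.1 (e.Θ_pr.1 this).1

end E1

open E1

theorem En.el256 (e : En G) {A : Subgroup G} (hA : A ≤ e.S0) (h2 : ∀ g ∈ A, g * g = 1) (hc : 256 ≤ Nat.card A) :
    ∃ ε δ, A = e.Wt ε δ := by
  have sq : ∀ v ∈ A.comap e.Θ, v * v = 1 := fun v hv =>
    (map_eq_one_iff _ e.Θ_inj).1 (by rw [map_mul]; exact h2 _ hv)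
  have s1 : ∀ p ∈ (A.comap e.Θ).map (MonoidHom.fst T0 T0), p * p = 1 := by
    rintro _ ⟨v, hv, rfl⟩
    rw [← map_mul, sq v hv, map_one]
  have s2 : ∀ p ∈ (A.comap e.Θ).map (MonoidHom.snd T0 T0), p * p = 1 := by
    rintro _ ⟨v, hv, rfl⟩
    rw [← map_mul, sq v hv, map_one]
  have le : A ≤ e.pr ((A.comap e.Θ).map (MonoidHom.fst T0 T0)) ((A.comap e.Θ).map (MonoidHom.snd T0 T0)) :=
    fun g hg => by
      obtain ⟨p, q, rfl⟩ := e.mem_S0.1 (hA hg)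
      exact e.Θ_pr.2 ⟨⟨(p, q), hg, rfl⟩, ⟨(p, q), hg, rfl⟩⟩
  have h3 := hc.trans (card_le_of_le le)
  rw [e.card_pr] at h3
  have b1 := card_le_sixteen s1
  have b2 := card_le_sixteen s2
  obtain ⟨ε, e1⟩ := exV s1 (by nlinarith)
  obtain ⟨δ, e2⟩ := exV s2 (by nlinarith)
  rw [e1, e2] at le
  exact ⟨ε, δ, eq_of_le_of_card_ge le ((e.card_Wt ε δ).le.trans hc)⟩

theorem En.exists_ty (e : En G) {n : G} (hn : n ∈ 𝐍[e.Jt]) : ∃ d, e.Ty n d := by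
  have h1 : ∀ ε δ, ∃ a b, cj(n, e.Wt ε δ) = e.Wt a b := fun ε δ =>
    e.el256 ((cj_le_of_norm (e.Wt_le ε δ) hn).trans e.pr_le_S0) (fun g hg => by
      have := e.Wt_sq (mem_cj.1 hg)
      calc _ = n * (n⁻¹ * g * n * (n⁻¹ * g * n)) * n⁻¹ := by group
        _ = 1 := by rw [this]; group) (by rw [card_cj, e.card_Wt])
  choose a b hab using h1
  have c : ∀ ε δ ε' δ', Nat.card (e.Wt ε δ ⊓ e.Wt ε' δ' : Subgroup G) = kk ε ε' * kk δ δ' := fun _ _ _ _ => by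
    rw [En.Wt, En.Wt, e.pr_inf, e.card_pr, card_inf, card_inf]
  have k : ∀ ε δ ε' δ', kk (a ε δ) (a ε' δ') * kk (b ε δ) (b ε' δ') = kk ε ε' * kk δ δ' := fun _ _ _ _ => by
    rw [← c, ← c, ← hab, ← hab, ← cj_inf, card_cj]
  obtain ⟨d, d1, d2, d3, d4⟩ := ex_d _ _ _ _ _ _ _ _ (k true true true false) (k true true false true)
    (k true true false false) (k true false false true)
  refine ⟨d, fun ε δ => (hab ε δ).trans ?_⟩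
  cases ε <;> cases δ
  exacts [by rw [d4.1, d4.2], by rw [d3.1, d3.2], by rw [d2.1, d2.2], by rw [d1.1, d1.2]]

theorem En.Ty.V1 {e : En G} {n : G} {d : D8} (h : e.Ty n d) (ε : Bool) :
    cj(n, e.pr (V ε) Z0) = cond d.σ (e.pr Z0 (V (xor ε d.β))) (e.pr (V (xor ε d.α)) Z0) := by
  have h1 : e.pr (V ε) Z0 = e.Wt ε true ⊓ e.Wt ε false := by rw [En.Wt, En.Wt, e.pr_inf, inf_idem]; rfl
  rw [h1, cj_inf, h, h, En.Wt, En.Wt, e.pr_inf]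
  obtain ⟨_ | _, α, β⟩ := d
  · exact congrArg₂ e.pr (inf_idem _) (inf_V β)
  · exact congrArg₂ e.pr (inf_V α) (inf_idem _)

theorem En.Ty.V2 {e : En G} {n : G} {d : D8} (h : e.Ty n d) (ε : Bool) :
    cj(n, e.pr Z0 (V ε)) = cond d.σ (e.pr (V (xor ε d.α)) Z0) (e.pr Z0 (V (xor ε d.β))) := by
  have h1 : e.pr Z0 (V ε) = e.Wt true ε ⊓ e.Wt false ε := by rw [En.Wt, En.Wt, e.pr_inf, inf_idem]; rfl
  rw [h1, cj_inf, h, h, En.Wt, En.Wt, e.pr_inf]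
  obtain ⟨_ | _, α, β⟩ := d
  · exact congrArg₂ e.pr (inf_V α) (inf_idem _)
  · exact congrArg₂ e.pr (inf_idem _) (inf_V β)

theorem En.Ty.Z1 {e : En G} {n : G} {d : D8} (h : e.Ty n d) :
    cj(n, e.pr Z0 ⊥) = cond d.σ (e.pr ⊥ Z0) (e.pr Z0 ⊥) := by
  have h1 := h.V1
  obtain ⟨_ | _, α, β⟩ := d
  · exact trZ (R := fun ε => e.pr (V ε) Z0) (gen1 e) (fun ε => (h1 ε).le.trans (e.pr_mono (V_le _) le_rfl))
      (c1 e) le_rfl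
  · exact trZ (R := fun ε => e.pr (V ε) Z0) (gen1 e) (fun ε => (h1 ε).le.trans (e.pr_mono le_rfl (V_le _)))
      (c2 e) (card12 e).ge

theorem En.Ty.Z2 {e : En G} {n : G} {d : D8} (h : e.Ty n d) :
    cj(n, e.pr ⊥ Z0) = cond d.σ (e.pr Z0 ⊥) (e.pr ⊥ Z0) := by
  have h1 := h.V2
  obtain ⟨_ | _, α, β⟩ := d
  · exact trZ (R := fun ε => e.pr Z0 (V ε)) (gen2 e) (fun ε => (h1 ε).le.trans (e.pr_mono le_rfl (V_le _)))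
      (c2 e) le_rfl
  · exact trZ (R := fun ε => e.pr Z0 (V ε)) (gen2 e) (fun ε => (h1 ε).le.trans (e.pr_mono (V_le _) le_rfl))
      (c1 e) (card12 e).le

theorem En.Ty.weak {e : En G} {s : G} {d : D8} (h : e.Ty s d) (hs : s ∈ 𝐍[e.S0]) :
    cj(s, e.T1) ≤ cond d.σ (e.pr Z0 ⊤) (e.pr ⊤ Z0) ∧ cj(s, e.T2) ≤ cond d.σ (e.pr ⊤ Z0) (e.pr Z0 ⊤) := by
  have v1 := h.V1
  have v2 := h.V2
  have z1 := h.Z1
  have z2 := h.Z2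
  obtain ⟨_ | _, α, β⟩ := d
  · exact ⟨tr hs e.pr_le_S0 (p1 e) (q1 e) β v2 z1, tr hs e.pr_le_S0 (p2 e) (q2 e) α v1 z2⟩
  · exact ⟨tr hs e.pr_le_S0 (p1 e) (q2 e) α v2 z1, tr hs e.pr_le_S0 (p2 e) (q1 e) β v1 z2⟩

end Cfsg.Agent.Std.W
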