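import Mathlib
import Cfsg.Agent.Std.WEn

/-!
An involution normalising both factors acts on `E₁` as an element of the first factor.
-/

set_option autoImplicit false

namespace Cfsg.Agent.Std.W

open Cfsg.Agent.Loc.Mss Cfsg.Agent.Wr Subgroup

universe u

variable {G : Type u} [Group G]

namespace E4

theorem d_comm : ∀ p ∈ E0, ∀ q ∈ F0, p * q * p⁻¹ * q⁻¹ = w (p.a * q.b) := by decide +kernel
theorem d_w : ∀ a b, w a = w b → a = b := by decide +kernel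
theorem d_E : ∀ p ∈ E0, p = x p.a * w p.c := by decide +kernel
theorem d_F : ∀ p ∈ F0, p = y p.b * w p.c := by decide +kernel
theorem d_J : ∀ j ∈ J0, (j * x 1 * j⁻¹).a = 1 := by decide +kernel
theorem d_x : ∀ a, x a = 1 ∨ x a = x 1 ∨ x a = x om ∨ x a = x 1 * x om := by decide +kernel
theorem d_y : ∀ a, y a = 1 ∨ y a = y 1 ∨ y a = y om ∨ y a = y 1 * y om := by decide +kernel
theorem d_fi : fi * w 1 * fi⁻¹ = w 1 ∧ fi * (w 1 * w om) * fi⁻¹ = w om := by decide +kernel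
theorem d_sc : ∀ p1 ∈ E0, ∀ p2 ∈ E0, ∀ b : K4, p1.a * b = 1 → p2.a * b = om →
    (x p1.a = x 1 → (p1 * w p1.c).a = 1) → (x p1.a = x om → (p2 * w p1.c).a = 1) →
    (x p1.a = x 1 * x om → (p1 * p2 * w p1.c).a = 1) → p1.a = 1 ∧ p2.a = om ∧ b = 1 := by decide +kernel
theorem d_fin : ∀ j ∈ J0, ∀ c d : K4, x om * w d = j * rho om 1 (x 1 * w c) * j⁻¹ →
    x 1 * w c * (x om * w d) = j * rho om 1 (x om * w d) * j⁻¹ →
    ∃ b, x 1 * w c = y b * x 1 * (y b)⁻¹ ∧ x om * w d = y b * x om * (y b)⁻¹ := by decide +kernel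
theorem d_rho : rho om 1 (x 1) = x om ∧ rho om 1 (x om) = x 1 * x om := by decide +kernel
theorem rho_Z : ∀ p ∈ Z0, rho om 1 p ∈ Z0 := by decide +kernel
theorem rho_mul : ∀ p ∈ J0, ∀ q ∈ Z0, rho om 1 (p * q) = rho om 1 p * rho om 1 q := by decide +kernel

theorem E_le {S : Subgroup T0} (h1 : x 1 ∈ S) (h2 : x om ∈ S) (h3 : Z0 ≤ S) : E0 ≤ S := fun p hp => by
  rw [d_E p hp]
  refine mul_mem ?_ (h3 (w_mem _))
  rcases d_x p.a with e | e | e | e <;> rw [e]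
  exacts [one_mem _, h1, h2, mul_mem h1 h2]

theorem F_le {S : Subgroup T0} (h1 : y 1 ∈ S) (h2 : y om ∈ S) (h3 : Z0 ≤ S) : F0 ≤ S := fun p hp => by
  rw [d_F p hp]
  refine mul_mem ?_ (h3 (w_mem _))
  rcases d_y p.b with e | e | e | e <;> rw [e]
  exacts [one_mem _, h1, h2, mul_mem h1 h2]

/-- An automorphism fixing `Z`, `E`, `F` whose square is induced by `J` is trivial on `J / Z`. -/
theorem triv (l : T0 →* T0) (hE : ∀ p ∈ E0, l p ∈ E0) (hF : ∀ p ∈ F0, l p ∈ F0) (hZ : ∀ p ∈ Z0, l p = p)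
    {j : T0} (hj : j ∈ J0) (h2 : l (l (x 1)) = j * x 1 * j⁻¹) :
    (l (x 1)).a = 1 ∧ (l (x om)).a = om ∧ ∀ p ∈ J0, ∃ z ∈ Z0, l p = p * z := by
  have cm : ∀ a b, (l (x a)).a * (l (y b)).b = a * b := fun a b => d_w _ _ (by
    rw [← d_comm _ (hE _ (x_mem a)) _ (hF _ (y_mem b)), ← map_inv, ← map_inv, ← map_mul, ← map_mul, ← map_mul,
      xy_comm, hZ _ (w_mem _)])
  have k : (l (x (l (x 1)).a) * w (l (x 1)).c).a = 1 := by
    rw [← hZ _ (w_mem _), ← map_mul, ← d_E _ (hE _ (x_mem 1)), h2, d_J j hj]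
  obtain ⟨a1, a2, b1⟩ := d_sc _ (hE _ (x_mem 1)) _ (hE _ (x_mem om)) _ ((cm 1 1).trans (mul_one _))
    ((cm om 1).trans (mul_one _)) (fun e => by rwa [e] at k) (fun e => by rwa [e] at k) fun e => by rwa [e, map_mul] at k
  have b2 : (l (y om)).b = om := by simpa [a1] using cm 1 om
  refine ⟨a1, a2, fun p hp => ?_⟩
  let H := ((QuotientGroup.mk' Z0).comp l).eqLocus (QuotientGroup.mk' Z0)
  have m : ∀ p, (∃ z ∈ Z0, l p = p * z) → p ∈ H := by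
    rintro p ⟨z, hz, e⟩
    change ((l p : T0) : T0 ⧸ Z0) = p
    rw [e, QuotientGroup.mk_mul_of_mem p hz]
  have mZ : Z0 ≤ H := fun p hp => m p ⟨1, one_mem _, by rw [hZ p hp, mul_one]⟩
  obtain ⟨e, he, f, hf, rfl⟩ := exists_EF p hp
  have : e * f ∈ H := mul_mem
    (E_le (m _ ⟨_, w_mem _, by rw [d_E _ (hE _ (x_mem 1)), a1]⟩) (m _ ⟨_, w_mem _, by rw [d_E _ (hE _ (x_mem om)), a2]⟩)
      mZ he)
    (F_le (m _ ⟨_, w_mem _, by rw [d_F _ (hF _ (y_mem 1)), b1]⟩) (m _ ⟨_, w_mem _, by rw [d_F _ (hF _ (y_mem om)), b2]⟩)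
      mZ hf)
  exact ⟨_, QuotientGroup.eq.1 (show ((e * f : T0) : T0 ⧸ Z0) = l (e * f) from this.symm), by group⟩

/-- `n` stabilises the chain `J₁ ≥ Z₁ ≥ 1`. -/
def St (θ : T0 →* G) (n : G) : Prop :=
  (∀ p ∈ J0, ∃ z ∈ Z0, n * θ p * n⁻¹ = θ (p * z)) ∧ ∀ z ∈ Z0, n * θ z * n⁻¹ = θ z

variable {θ : T0 →* G} {n n' : G}

theorem St.mul (h : St θ n) (h' : St θ n') : St θ (n * n') := by
  refine ⟨fun p hp => ?_, fun z hz => by rw [← conj_conj, h'.2 z hz, h.2 z hz]⟩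
  obtain ⟨z, hz, e⟩ := h.1 p hp
  obtain ⟨z', hz', e'⟩ := h'.1 p hp
  exact ⟨z * z', mul_mem hz hz', by rw [← conj_conj, e', map_mul, ← conj_mul, e, h.2 z' hz', ← map_mul, mul_assoc]⟩
where conj_conj {a b c : G} : a * (b * c * b⁻¹) * a⁻¹ = a * b * c * (a * b)⁻¹ := by group

theorem St.sq (h : St θ n) (p : T0) (hp : p ∈ J0) : n * (n * θ p * n⁻¹) * n⁻¹ = θ p := by
  obtain ⟨z, hz, e⟩ := h.1 p hp
  rw [e, map_mul, ← conj_mul, e, h.2 z hz, ← map_mul, mul_assoc, sq_E z hz.1, mul_one]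

theorem St.inv (h : St θ n) : St θ n⁻¹ := by
  refine ⟨fun p hp => ?_, fun z hz => by nth_rewrite 1 [← h.2 z hz]; group⟩
  obtain ⟨z, hz, e⟩ := h.1 p hp
  exact ⟨z, hz, by rw [← e]; nth_rewrite 1 [← h.sq p hp]; group⟩

theorem St.odd (h : St θ n) {m : ℕ} (hm : Odd m) (p : T0) (hp : p ∈ J0) : n ^ m * θ p * (n ^ m)⁻¹ = n * θ p * n⁻¹ := by
  obtain ⟨k, rfl⟩ := hm
  have c : Commute (n ^ 2) (θ p) := mul_inv_eq_iff_eq_mul.1
    ((by simp only [pow_two, mul_inv_rev, mul_assoc] : n ^ 2 * θ p * (n ^ 2)⁻¹ = n * (n * θ p * n⁻¹) * n⁻¹).trans (h.sq p hp))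
  rw [pow_succ', pow_mul, mul_assoc n, (c.pow_left k).eq]
  group

theorem St.conj (h : St θ n) {k : G} (hk : ∀ p ∈ J0, k * θ p * k⁻¹ = θ (rho om 1 p)) : St θ (k * n * k⁻¹) := by
  have e : ∀ p ∈ J0, k * n * k⁻¹ * θ p * (k * n * k⁻¹)⁻¹ = k * (n * θ (rho om 1 (rho om 1 p)) * n⁻¹) * k⁻¹ :=
    fun p hp => by
      nth_rewrite 1 [← rho2_cube p]
      rw [← hk _ (rho2_J _ (rho2_J p hp))]
      group
  refine ⟨fun p hp => ?_, fun z hz => ?_⟩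
  · have m := rho2_J _ (rho2_J p hp)
    obtain ⟨z, hz, q⟩ := h.1 _ m
    exact ⟨_, rho_Z z hz, by rw [e p hp, q, hk _ (mul_mem m (E0_le hz.1)), rho_mul _ m z hz, rho2_cube]⟩
  · have m := rho_Z _ (rho_Z z hz)
    rw [e z (E0_le hz.1), h.2 _ m, hk _ (E0_le m.1), rho2_cube]

end E4

open E4

variable [Finite G]

theorem En.Sy.inner {e : En G} {S : Subgroup G} (h : e.Sy S) {v : G} (v2 : v * v = 1) (h1 : v ∈ 𝐍[e.T1])
    (h2 : v ∈ 𝐍[e.T2]) (hE : v ∈ 𝐍[e.E1]) : ∃ c, (e.θ c)⁻¹ * v ∈ 𝐂[e.E1] := by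
  obtain ⟨f, hf⟩ := exists_aut e.θ_inj e.θ_inj (g := v) (e.T1_eq ▸ cj_eq_iff.2 h1)
  have ff : ∀ p, f (f p) = p := fun p => e.θ_inj (by
    rw [← hf, ← hf, show v * (v * e.θ p * v⁻¹) * v⁻¹ = v * v * e.θ p * (v * v)⁻¹ by group, v2]; group)
  have fE : ∀ p ∈ E0, f p ∈ E0 := fun p hp => e.θ_pr.1 (hf p ▸ conj_mem_of_norm hE (e.θ_pr.2 hp))
  have fF : ∀ p ∈ F0, f p ∈ F0 := by
    obtain ⟨_ | _, k⟩ := aut_cases f
    · exact fun p => (k false p).2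
    · exact absurd ((k false (x 1)).1 (fE _ (x_mem 1))) (by decide +kernel)
  obtain ⟨c, c1, c2, c3⟩ : ∃ c, c * w 1 * c⁻¹ = w 1 ∧ c * f (w om) * c⁻¹ = w om ∧ c * f c ∈ J0 := by
    rcases Z_cases _ ((aut_Z f _).2 (w_mem om)) with k | k | k | k
    · exact absurd (f.injective (k.trans f.map_one.symm)) (by decide +kernel)
    · exact absurd (f.injective (k.trans (aut_z f).symm)) (by decide +kernel)
    · exact ⟨1, by simp, by simp [k], by simp⟩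
    · exact ⟨fi, d_fi.1, k ▸ d_fi.2, (mem_J_iff _ _).2 (aut_J f fi).symm⟩
  let l : T0 →* T0 := (MulAut.conj c).toMonoidHom.comp f.toMonoidHom
  have hl : ∀ p, l p = c * f p * c⁻¹ := fun _ => rfl
  have sl : ∀ p, e.θ c * v * e.θ p * (e.θ c * v)⁻¹ = e.θ (l p) := fun p => by
    rw [hl, map_mul, map_mul, map_inv, ← hf]; group
  have lZ : ∀ p ∈ Z0, l p = p := fun p hp => by
    have a1 : l (w 1) = w 1 := by rw [hl, aut_z, c1]
    rcases Z_cases p hp with rfl | rfl | rfl | rfl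
    exacts [map_one l, a1, c2, by rw [map_mul, a1, show l (w om) = w om from c2]]
  have lE : ∀ p ∈ E0, l p ∈ E0 := fun p hp => Normal.conj_mem inferInstance _ (fE p hp) c
  obtain ⟨a1, a2, t⟩ := triv l lE (fun p hp => Normal.conj_mem inferInstance _ (fF p hp) c) lZ c3 (by
    rw [hl, hl, map_mul, map_mul, map_inv, ff]; group)
  obtain ⟨s, hs⟩ : ∃ s, e.θ c * v = s := ⟨_, rfl⟩
  rw [hs] at sl
  have ss : St e.θ s := ⟨fun p hp => (t p hp).imp fun z k => ⟨k.1, by rw [sl, k.2]⟩, fun z hz => by rw [sl, lZ z hz]⟩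
  obtain ⟨k, -, k1, k2⟩ := e.wre.fusN _ (e.P_le_NE e.r2P)
  replace k2 : ∀ p ∈ J0, k * e.θ p * k⁻¹ = e.θ (rho om 1 p) := fun p hp => k2 p _ (e.act2 p hp)
  have kC : k ∈ 𝐂[e.T2] := mem_cent.2 fun a ha => by
    obtain ⟨q, -, rfl⟩ := e.mem_pr2.1 ha
    exact (k1 q).symm
  have sN : s ∈ 𝐍[e.T2] := hs ▸ mul_mem (cent_le_norm _ (mem_cent.2 fun a ha => by
    obtain ⟨q, -, rfl⟩ := e.mem_pr2.1 ha
    exact (e.comm12 c q).symm)) h2
  obtain ⟨g, hg⟩ : ∃ g, s * (k * s⁻¹ * k⁻¹) = g := ⟨_, rfl⟩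
  have gs : St e.θ g := hg ▸ ss.mul (ss.inv.conj k2)
  have gC : g ∈ 𝐂[e.T2] := by
    rw [← hg, ← mul_assoc, ← mul_assoc]
    exact mul_mem (conj_mem_of_norm (norm_cent le_rfl sN) kC) (inv_mem kC)
  obtain ⟨n, m, hm, eo⟩ := Nat.exists_eq_two_pow_mul_odd (orderOf_pos g).ne'
  have act : ∀ p ∈ J0, ∀ q, g ^ m * e.Θ (p, q) * (g ^ m)⁻¹ = g * e.θ p * g⁻¹ * e.θ2 q := fun p hp q => by
    rw [e.Θ_def, ← conj_mul, gs.odd hm p hp, ← mem_cent.1 (pow_mem gC m) _ (e.θ2_T2 q), mul_inv_cancel_right]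
  obtain ⟨j, hj, j', -, ej⟩ := e.mem_pr.1 (h.twoJ (g ^ m) (En.ty_one.2 fun ε δ => mem_norm_of_cj_le
    (cj_le_iff.2 fun a ha => by
      obtain ⟨p, hp, q, hq, rfl⟩ := e.mem_pr.1 ha
      obtain ⟨z, hz, r⟩ := gs.1 p (V_le ε hp)
      rw [act p (V_le ε hp), r]
      exact e.Θ_pr.2 ⟨mul_mem hp (Z_le_V ε hz), hq⟩)) (mem_cent.2 fun a ha => by
      obtain ⟨p, hp, q, -, rfl⟩ := e.mem_pr.1 ha
      exact (mul_inv_eq_iff_eq_mul.1 ((act p (E0_le hp.1) q).trans (by rw [gs.2 p hp]; rfl))).symm) n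
    (by rw [← pow_mul, mul_comm, ← eo, pow_orderOf_eq_one]))
  have gj : ∀ p ∈ J0, g * e.θ p * g⁻¹ = e.θ (j * p * j⁻¹) := fun p hp => by
    rw [← gs.odd hm p hp, ← ej, ← e.Θ_left p, ← map_inv, ← map_mul, ← map_mul, ← e.Θ_left]
    simp
  have key : ∀ p ∈ E0, l (rho om 1 p) = j * rho om 1 (l p) * j⁻¹ := fun p hp => e.θ_inj (by
    rw [← gj _ (rho2_J _ (E0_le (lE p hp))), ← k2 _ (E0_le (lE p hp)), ← sl, ← sl, ← k2 p (E0_le hp), ← hg]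
    group)
  have p1 := d_E _ (lE _ (x_mem 1))
  have p2 := d_E _ (lE _ (x_mem om))
  rw [a1] at p1
  rw [a2] at p2
  obtain ⟨b, b1, b2⟩ := d_fin j hj (l (x 1)).c (l (x om)).c (by rw [← p1, ← p2, ← key _ (x_mem 1), d_rho.1])
    (by rw [← p1, ← p2, ← key _ (x_mem om), d_rho.2, map_mul])
  have fin : E0 ≤ l.eqLocus (MulAut.conj (y b)).toMonoidHom := E_le (p1.trans b1) (p2.trans b2) fun p hp =>
    (lZ p hp).trans (mul_inv_eq_iff_eq_mul.2 (comm_Z p hp _ (F0_le (y_mem b))).symm).symm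
  refine ⟨c⁻¹ * y b, mem_cent.2 fun a ha => ?_⟩
  obtain ⟨p, hp, rfl⟩ := e.mem_pr1.1 ha
  have := sl p
  rw [show l p = y b * p * (y b)⁻¹ from fin hp, map_mul, map_mul, map_inv] at this
  rw [map_mul, map_inv, mul_inv_rev, inv_inv, mul_assoc _ _ v, hs]
  calc e.θ p * ((e.θ (y b))⁻¹ * s) = (e.θ (y b))⁻¹ * (e.θ (y b) * e.θ p * (e.θ (y b))⁻¹) * s := by group
    _ = _ := by rw [← this]; group

end Cfsg.Agent.Std.W
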