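import Mathlib
import Cfsg.Agent.Std.WAct
import Cfsg.Agent.Wr.Avg

/-!
# A standard subgroup of type `M₂₃` or `McL`: the case of the field with four elements does not occur
-/

set_option autoImplicit false
set_option linter.unusedSectionVars false

namespace Cfsg.Agent.Std.W

open Cfsg.Agent.Loc.Mss Cfsg.Agent.Wr Subgroup

universe u

variable {G : Type u} [Group G] [Finite G]

namespace FourA

/-- A transvection of `E0`. -/
def tau (p : T0) : T0 := ⟨p.a, p.b, p.c + p.a + p.a * p.a, p.e⟩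

theorem tau_E : ∀ p ∈ E0, tau p ∈ E0 := fun _ h => h
theorem tau_tau : ∀ p ∈ E0, tau (tau p) = p := by decide +kernel
theorem tau_trv : ∀ p ∈ E0, ∀ q ∈ E0, tau p = p ∨ tau q = q ∨ tau (p * q) = p * q := by decide +kernel
theorem tau_ne : tau (x om) ≠ x om := by decide +kernel

theorem no_trvF : ∀ p : T0, (∀ e ∈ F0, ∀ e' ∈ F0, e * p = p * e ∨ e' * p = p * e' ∨ e * e' * p = p * (e * e')) →
    p ∈ F0 := by decide +kernel

theorem no_trvV (ε : Bool) : ∀ p : T0,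
    (∀ e ∈ V ε, ∀ e' ∈ V ε, e * p = p * e ∨ e' * p = p * e' ∨ e * e' * p = p * (e * e')) → p ∈ V ε := by
  cases ε
  exacts [no_trvF, no_trv]

/-- The action on pairs. -/
def act (r : T0) (v : T0 × T0) : T0 × T0 :=
  (v.1 * (r * v.2 * r⁻¹ * v.2), r * v.1 * r⁻¹ * v.1 * v.2 * (r * v.2 * r⁻¹ * v.2))

theorem eta_E (r : T0) {p : T0} (hp : p ∈ E0) : r * p * r⁻¹ * p ∈ E0 :=
  mul_mem (Normal.conj_mem inferInstance p hp r) hp

theorem act_E (r : T0) {v : T0 × T0} (h : v.1 ∈ E0 ∧ v.2 ∈ E0) : (act r v).1 ∈ E0 ∧ (act r v).2 ∈ E0 :=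
  ⟨mul_mem h.1 (eta_E r h.2), mul_mem (mul_mem (eta_E r h.1) h.2) (eta_E r h.2)⟩

theorem act3 : ∀ p ∈ E0, ∀ q ∈ E0, act (y 1) (act fi (act (y om * fi * (y om)⁻¹) (p, q))) = (tau p, tau q) := by
  decide +kernel

/-- No element of `L` acts on `E` as a transvection. -/
theorem no_tau (c : Co G) {l : G} (hl : l ∈ c.L) (h : ∀ p ∈ E0, l * c.ι p * l⁻¹ = c.ι (tau p)) : False := by
  have h2 : l * l ∈ c.E := c.cenE (mul_mem hl hl) fun p hp => by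
    calc _ = l * (l * c.ι p * l⁻¹) * l⁻¹ * (l * l) := by group
      _ = _ := by rw [h p hp, h _ (tau_E p hp), tau_tau p hp]
  have hn : l ∈ 𝐍[c.E] := c.norm_of fun p hp => ⟨_, tau_E p hp, h p hp⟩
  have h4 : l ^ 2 ^ 2 = 1 := by rw [← c.sq_E h2]; simp [pow_succ, mul_assoc]
  have pg : IsPGroup 2 (c.E ⊔ zpowers l : Subgroup G) :=
    pg_sup' (c.pgT.to_le c.E_le_T) (IsPGroup.of_card_dvd_pow (n := 2) (by
      rw [Nat.card_zpowers]; exact orderOf_dvd_of_pow_eq_one h4)) (zpowers_le.2 hn)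
  obtain ⟨m, -, e⟩ := c.sylT.conj_le pg (sup_le (c.E_le_T.trans c.T_le) (zpowers_le.2 hl))
  obtain ⟨r, hr⟩ := e (conj_mem_cj (mem_sup_right (mem_zpowers l)))
  obtain ⟨ε, hε⟩ : ∃ ε, cj(m, c.E) = (V ε).map c.ι :=
    (c.el16 ((cj_mono m le_sup_left).trans e) (fun g hg => by
      have := c.sq_E (mem_cj.1 hg)
      calc _ = m * (m⁻¹ * g * m * (m⁻¹ * g * m)) * m⁻¹ := by group
        _ = 1 := by rw [this]; group) (by rw [card_cj, c.card_E])).elim (fun e => ⟨true, e⟩) fun e => ⟨false, e⟩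
  have k : ∀ a p, p ∈ E0 → c.ι p = m⁻¹ * c.ι a * m → tau p = p → a * r = r * a := fun a p hp e1 e2 => by
    have e3 := h p hp
    rw [e2, mul_inv_eq_iff_eq_mul, e1] at e3
    rw [← c.ι_eq, map_mul, map_mul, hr]
    calc _ = m * (m⁻¹ * c.ι a * m * l) * m⁻¹ := by group
      _ = _ := by rw [← e3]; group
  have h5 : r ∈ V ε := no_trvV ε r fun a ha b hb => by
    obtain ⟨p, hp, e1⟩ := mem_cj.1 (hε ▸ c.ι_mem.2 ha : c.ι a ∈ cj(m, c.E))
    obtain ⟨q, hq, e2⟩ := mem_cj.1 (hε ▸ c.ι_mem.2 hb : c.ι b ∈ cj(m, c.E))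
    exact (tau_trv p hp q hq).imp (k a p hp e1) (Or.imp (k b q hq e2) (k _ _ (mul_mem hp hq) (by
      rw [map_mul, map_mul, e1, e2]; group)))
  have h6 : l ∈ c.E := by
    have := mem_cj.1 (hε ▸ c.ι_mem.2 h5 : c.ι r ∈ cj(m, c.E))
    rw [hr] at this
    simpa [mul_assoc] using this
  have h7 := h _ (x_mem om)
  rw [c.comm_E h6 (c.ι_E.2 (x_mem om)), mul_inv_cancel_right, c.ι_eq] at h7
  exact tau_ne h7.symm

/-- `k` acts on `U × t U t` through the field with four elements, over `Y`. -/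
def Fr (t : G) (U : Subgroup G) (Y k : G) : Prop :=
  ∀ u ∈ U, k * u * k⁻¹ = u * (t * (Y * u * Y⁻¹ * u) * t) ∧
    k * (t * u * t) * k⁻¹ = t * u * t * (Y * u * Y⁻¹ * u) * (t * (Y * u * Y⁻¹ * u) * t)

theorem Fr.conj {t Y k n : G} {U : Subgroup G} (h : Fr t U Y k) (hn : n ∈ 𝐍[U]) (ht : n * t = t * n) :
    Fr t U (n * Y * n⁻¹) (n * k * n⁻¹) := fun u hu => by
  obtain ⟨h1, h2⟩ := h _ (conj_mem_of_norm' hn hu)
  have e : t = n * t * n⁻¹ := by rw [ht]; group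
  constructor
  · calc _ = n * (k * (n⁻¹ * u * n) * k⁻¹) * n⁻¹ := by group
      _ = _ := by rw [h1]; (conv_rhs => rw [e]); group
  · calc _ = n * (k * (t * (n⁻¹ * u * n) * t) * k⁻¹) * n⁻¹ := by (conv_lhs => rw [e]); group
      _ = _ := by rw [h2]; (conv_rhs => rw [e]); group

theorem Fr.of_mul {t Y k a : G} {U : Subgroup G} (h : Fr t U (Y * a) k) (ha : ∀ u ∈ U, a * u = u * a) :
    Fr t U Y k := fun u hu => by
  have e : Y * a * u * (Y * a)⁻¹ = Y * u * Y⁻¹ := by rw [mul_assoc Y, ha u hu]; group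
  simpa only [e] using h u hu

end FourA

open FourA

theorem Co.Four.false {c : Co G} (a7 : c.εE = true) {D W U : Subgroup G} {g : G} (h : c.DW D W)
    (hs : c.Sec D W U g) (h4 : c.Four U g) : False := by
  have hD := h.hD.dbl
  have tc : ∀ n ∈ c.NE, n * c.t = c.t * n := fun n hn => c.tc (c.NE_le_L hn)
  have nU : c.NE ≤ 𝐍[U] := fun n hn => mem_norm_of_cj_le (cj_le_iff.2 (hD.avg tc h.hD.nNE c.P_le_NE
    (c.odd_index c.P_le_NE c.NE_le_L) hs.le hs.inj hs.onto hs.nP c.endo_E n hn))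
  have : ∀ p, p ∈ E0 → ∃ u ∈ U, ph c.t u = c.ι p := fun p hp => hs.onto _ (c.ι_E.2 hp)
  choose! σ hσ hph using this
  have σD : ∀ p ∈ E0, σ p ∈ D := fun p hp => hs.le (hσ p hp)
  have uniq : ∀ u ∈ U, ∀ p ∈ E0, ph c.t u = c.ι p → u = σ p := fun u hu p hp e => by
    have := hs.inj _ (mul_mem hu (hσ p hp)) (by
      rw [hD.mul (hs.le hu) (σD p hp), e, hph p hp, c.sq_E (c.ι_E.2 hp)])
    rwa [mul_eq_one_iff_eq_inv, hD.inv (σD p hp)] at this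
  have σm : ∀ p ∈ E0, ∀ q ∈ E0, σ p * σ q = σ (p * q) := fun p hp q hq =>
    uniq _ (mul_mem (hσ p hp) (hσ q hq)) _ (mul_mem hp hq) (by
      rw [hD.mul (σD p hp) (σD q hq), hph p hp, hph q hq, map_mul])
  have σc : ∀ r, ∀ p ∈ E0, c.ι r * σ p * (c.ι r)⁻¹ = σ (r * p * r⁻¹) := fun r p hp =>
    uniq _ (hs.nP _ (c.ιP r) _ (hσ p hp)) _ (Normal.conj_mem inferInstance p hp r) (by
      rw [ph_conj (c.tc (c.ιL r)), hph p hp, c.ι_conj])
  obtain ⟨Φ, hΦ⟩ : ∃ Φ : T0 × T0 → G, ∀ v, Φ v = σ v.1 * (c.t * σ v.2 * c.t) := ⟨_, fun _ => rfl⟩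
  have tm : ∀ a b : G, c.t * a * c.t * (c.t * b * c.t) = c.t * (a * b) * c.t := fun a b => by
    calc _ = c.t * a * (c.t * c.t) * b * c.t := by group
      _ = _ := by rw [c.tt]; group
  have key : ∀ r k, Fr c.t U (c.ι r) k → ∀ v : T0 × T0, v.1 ∈ E0 ∧ v.2 ∈ E0 → k * Φ v * k⁻¹ = Φ (act r v) :=
    fun r k hk ⟨p, q⟩ ⟨hp, hq⟩ => by
      have e1 := (hk _ (hσ p hp)).1
      have e2 := (hk _ (hσ q hq)).2
      rw [σc r _ hp, σm _ (Normal.conj_mem inferInstance p hp r) _ hp] at e1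
      rw [σc r _ hq, σm _ (Normal.conj_mem inferInstance q hq r) _ hq] at e2
      have a1 := eta_E r hp
      have a2 := eta_E r hq
      rw [hΦ, hΦ, ← conj_mul, e1, e2]
      simp only [act]
      generalize r * p * r⁻¹ * p = p' at a1
      generalize r * q * r⁻¹ * q = q' at a2
      rw [← σm _ hp _ a2, ← σm _ (mul_mem a1 hq) _ a2, ← σm _ a1 _ hq, ← tm, ← tm]
      have c1 := hD.comm _ (mul_mem (hD.tdt_mem (σD _ a1)) (hD.tdt_mem (σD _ hq))) _ (σD _ a2)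
      calc _ = σ p * (c.t * σ p' * c.t * (c.t * σ q * c.t) * σ q') * (c.t * σ q' * c.t) := by group
        _ = _ := by rw [c1]; group
  have f1 : Fr c.t U (c.ι (y 1)) g := by
    have : (c.ι (y 1))⁻¹ = c.ι (y 1) := inv_eq_of_mul_eq_one_right (c.sq_F (c.ι_F.2 (y_mem 1)))
    intro u hu
    have := h4 u hu
    simpa only [Co.eta, *] using this
  obtain ⟨n, hn, p0, hp0, e0⟩ := c.conj_fi a7
  have f2 : Fr c.t U (c.ι fi) (n⁻¹ * g * n⁻¹⁻¹) := by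
    have h1 := f1.conj (nU (inv_mem hn)) (tc _ (inv_mem hn))
    have h2 : n⁻¹ * c.ι (y 1) * n⁻¹⁻¹ = c.ι fi * (n⁻¹ * (c.ι p0)⁻¹ * n) := by
      rw [eq_mul_inv_of_mul_eq (map_mul c.ι (y 1) p0).symm, ← e0]; group
    rw [h2] at h1
    exact h1.of_mul fun u hu => hD.comm _ (hD.le (conj_mem_of_norm' (c.NE_norm hn) (inv_mem (c.ι_E.2 hp0)))) _
      (hs.le hu)
  have f3 := f2.conj (nU (c.P_le_NE (c.ιP (y om)))) (c.tc (c.ιL _))
  rw [c.ι_conj] at f3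
  generalize n⁻¹ * g * n⁻¹⁻¹ = g2 at f2 f3
  generalize c.ι (y om) * g2 * (c.ι (y om))⁻¹ = g3 at f3
  have hk : ∀ p ∈ E0, ∀ q ∈ E0, g * g2 * g3 * Φ (p, q) * (g * g2 * g3)⁻¹ = Φ (tau p, tau q) := fun p hp q hq => by
    have a3 := act_E (y om * fi * (y om)⁻¹) (v := (p, q)) ⟨hp, hq⟩
    rw [← act3 p hp q hq, ← key _ _ f1 _ (act_E _ a3), ← key _ _ f2 _ a3, ← key _ _ f3 _ ⟨hp, hq⟩]
    group
  generalize g * g2 * g3 = k at hk
  have dg : ∀ p ∈ E0, Φ (p, p) = c.ι p := fun p hp => by rw [hΦ, ← hD.ph_eq (σD p hp), hph p hp]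
  have ΦD : ∀ p ∈ E0, ∀ q ∈ E0, Φ (p, q) ∈ D := fun p hp q hq =>
    hΦ _ ▸ mul_mem (σD p hp) (hD.tdt_mem (σD q hq))
  have sw : ∀ p ∈ E0, ∀ q ∈ E0, c.t * Φ (p, q) * c.t = Φ (q, p) := fun p hp q hq => by
    rw [hΦ, hΦ, hD.comm _ (σD q hq) _ (hD.tdt_mem (σD p hp))]
    calc _ = c.t * σ p * c.t * σ q * (c.t * c.t) := by group
      _ = _ := by rw [c.tt]; group
  have sur : ∀ d ∈ D, ∃ p ∈ E0, ∃ q ∈ E0, d = Φ (p, q) := fun d hd => by
    obtain ⟨r, hr, e1⟩ := hD.mem d hd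
    obtain ⟨s, hs', e2⟩ := hD.mul_mem_of_eq hd (σD r hr) (e1.symm.trans (hph r hr).symm)
    refine ⟨_, mul_mem hs' hr, s, hs', ?_⟩
    rw [eq_mul_inv_of_mul_eq e2.symm, hD.inv (σD r hr), ← dg s hs', hΦ, hΦ, ← σm _ hs' _ hr, mul_assoc,
      hD.comm _ (hD.tdt_mem (σD s hs')) _ (σD r hr), ← mul_assoc]
  have kD : k ∈ 𝐍[D] := mem_norm_of_cj_le (cj_le_iff.2 fun d hd => by
    obtain ⟨p, hp, q, hq, rfl⟩ := sur d hd
    exact hk p hp q hq ▸ ΦD _ (tau_E p hp) _ (tau_E q hq))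
  have kt : ∀ d ∈ D, k * (c.t * d * c.t) * k⁻¹ = c.t * (k * d * k⁻¹) * c.t := fun d hd => by
    obtain ⟨p, hp, q, hq, rfl⟩ := sur d hd
    rw [sw p hp q hq, hk p hp q hq, hk q hq p hp, sw _ (tau_E p hp) _ (tau_E q hq)]
  obtain ⟨b, h2, h3⟩ := hD.exists_conj c.E_ne_bot (s := ph c.t k) (fun d hd => by
    have e1 := kt _ (conj_mem_of_norm' kD (hD.tdt_mem hd))
    have e2 : c.t * (c.t * d * c.t) * c.t = d := by
      calc _ = c.t * c.t * d * (c.t * c.t) := by group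
        _ = _ := by rw [c.tt]; group
    calc _ = k * (c.t * (k⁻¹ * (c.t * d * c.t) * k) * c.t) * k⁻¹ * (k * c.t⁻¹ * k⁻¹ * c.t⁻¹) := by rw [ph]; group
      _ = c.t * (c.t * d * c.t) * c.t * (k * c.t⁻¹ * k⁻¹ * c.t⁻¹) := by rw [e1]; group
      _ = _ := by rw [e2, c.ti, ph]) (by
    rw [← conj_t c.tt, conj_mul, c.tt]; group)
  rw [← conj_t c.tt] at h3
  have h5 : ∀ p ∈ E0, b⁻¹ * k * c.ι p * (b⁻¹ * k)⁻¹ = c.ι (tau p) := fun p hp => by
    calc _ = b⁻¹ * (k * Φ (p, p) * k⁻¹) * b := by rw [dg p hp]; group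
      _ = _ := by
        rw [hk p hp p hp, mul_assoc, ← h2 _ (ΦD _ (tau_E p hp) _ (tau_E p hp)), dg _ (tau_E p hp)]; group
  rcases c.nE (b⁻¹ * k) (by
    calc _ = b⁻¹ * (k * c.t * k⁻¹) * k := by group
      _ = _ := by rw [← h3]; group) (c.norm_of fun p hp => ⟨_, tau_E p hp, h5 p hp⟩) with e | e
  · exact no_tau c e h5
  · refine no_tau c e fun p hp => ?_
    rw [← h5 p hp, mul_assoc _ c.t, ← c.tc (c.ιL p)]
    group

end Cfsg.Agent.Std.W
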