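import Mathlib
import Cfsg.Agent.Std.WDbl

/-!
# The doubles of `E` and `F` normalise each other
-/

set_option autoImplicit false

namespace Cfsg.Agent.Std.W

open Cfsg.Agent.Loc.Mss Cfsg.Agent.Wr Subgroup DblA

universe u

variable {G : Type u} [Group G]

namespace J1

theorem sq_inv {r : G} (h3 : r ^ 3 = 1) : r * r = r⁻¹ := eq_inv_of_mul_eq_one_left (by rw [← h3, pow_three'])

theorem conj_conj {r : G} (h3 : r ^ 3 = 1) (d : G) : r * (r * d * r⁻¹) * r⁻¹ = r⁻¹ * d * r :=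
  calc _ = r * r * d * (r * r)⁻¹ := by group
    _ = _ := by rw [sq_inv h3, inv_inv]

theorem nr_of_fix {r a : G} (h : r * a * r⁻¹ = a) : nr r a = a * a * a := by
  rw [nr, h, mul_right_inj]
  calc _ = r⁻¹ * (r * a * r⁻¹) * r := by rw [h]
    _ = _ := by group

section

variable {t r : G} {V D : Subgroup G} (h : Dbl t V D) (hr : r ∈ 𝐍[D])
include h hr

theorem nr_mem {d : G} (hd : d ∈ D) : nr r d ∈ D :=
  have _ := h
  mul_mem (mul_mem hd (conj_mem_of_norm hr hd)) (conj_mem_of_norm' hr hd)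

theorem nr_mul' {a b : G} (ha : a ∈ D) (hb : b ∈ D) : nr r (a * b) = nr r a * nr r b := by
  have h1 : Commute b (r * a * r⁻¹) := h.comm _ hb _ (conj_mem_of_norm hr ha)
  have h2 : Commute (b * (r * b * r⁻¹)) (r⁻¹ * a * r) :=
    h.comm _ (mul_mem hb (conj_mem_of_norm hr hb)) _ (conj_mem_of_norm' hr ha)
  rw [nr, nr, nr, ← h2.mul_mul_mul_comm, ← h1.mul_mul_mul_comm]
  group

theorem nr_fix (h3 : r ^ 3 = 1) {d : G} (hd : d ∈ D) : r * nr r d * r⁻¹ = nr r d :=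
  calc _ = r * d * r⁻¹ * (r * (r * d * r⁻¹) * r⁻¹) * d := by rw [nr]; group
    _ = _ := by
      rw [conj_conj h3, h.comm _ (mul_mem (conj_mem_of_norm hr hd) (conj_mem_of_norm' hr hd)) _ hd, nr, ← mul_assoc]

theorem ph_nr (hn : r * t = t * r) {d : G} (hd : d ∈ D) : ph t (nr r d) = nr r (ph t d) := by
  have h4 := ph_conj (Commute.inv_left hn).eq d
  rw [inv_inv] at h4
  rw [nr, h.mul (mul_mem hd (conj_mem_of_norm hr hd)) (conj_mem_of_norm' hr hd), h.mul hd (conj_mem_of_norm hr hd),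
    ph_conj hn, h4, nr]

theorem nr_nr (h3 : r ^ 3 = 1) {d : G} (hd : d ∈ D) : nr r (d * nr r d) = 1 := by
  have h1 := nr_mem h hr hd
  rw [nr_mul' h hr hd h1, nr_of_fix (nr_fix h hr h3 hd), h.sq _ h1, one_mul, h.sq _ h1]

end

theorem nr_ι (s : Lw G) {p : T0} (hp : p ∈ J0) : nr s.r1 (s.ι p) = s.ι (p * rho 1 om p * rho 1 om (rho 1 om p)) := by
  rw [nr, s.act1 _ hp, act1' _ hp, map_mul, map_mul]

theorem Z_of_nr (s : Lw G) {e : G} (he : e ∈ s.E) (h : nr s.r1 e = 1) : e ∈ s.Z := by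
  obtain ⟨p, hp, rfl⟩ := he
  rw [nr_ι s (E0_le hp), s.ι_eq_one] at h
  exact s.ι_Z.2 ((by decide +kernel : ∀ p ∈ E0, p * rho 1 om p * rho 1 om (rho 1 om p) = 1 → p ∈ Z0) p hp h)

theorem nr_Z (s : Lw G) {e : G} (he : e ∈ s.Z) : nr s.r1 e = 1 := by
  obtain ⟨p, hp, rfl⟩ := he
  rw [nr_ι s (E0_le (Z0_leE hp)), s.ι_eq_one]
  exact (by decide +kernel : ∀ p ∈ Z0, p * rho 1 om p * rho 1 om (rho 1 om p) = 1) p hp

theorem Z_comm (s : Lw G) {e : G} (he : e ∈ s.Z) {p : T0} (hp : p ∈ J0) : s.ι p * e = e * s.ι p := by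
  obtain ⟨q, hq, rfl⟩ := he
  rw [← map_mul, ← map_mul, comm_Z q hq p hp]

theorem r12_Z (s : Lw G) {e : G} (he : e ∈ s.Z) : s.r1 * e * s.r1⁻¹ = s.r2 * e * s.r2⁻¹ := by
  obtain ⟨q, hq, rfl⟩ := he
  rw [s.act1 _ (E0_le (Z0_leE hq)), s.act2 _ (E0_le (Z0_leE hq)),
    (by decide +kernel : ∀ p ∈ Z0, rho 1 om p = rho om 1 p) q hq]

theorem Z_of_comm (s : Lw G) {e : G} (he : e ∈ s.E) {b : K4} (hb : b ≠ 0) (h : s.ι (y b) * e = e * s.ι (y b)) :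
    e ∈ s.Z := by
  obtain ⟨q, hq, rfl⟩ := he
  rw [← map_mul, ← map_mul, s.ι_eq] at h
  exact s.ι_Z.2 ((by decide +kernel : ∀ b, b ≠ 0 → ∀ p ∈ E0, y b * p = p * y b → p ∈ Z0) b hb q hq h)

theorem y_zero (s : Lw G) : s.ι (y 0) = 1 := map_one s.ι

theorem y_sq' (s : Lw G) (b : K4) : s.ι (y b) * s.ι (y b) = 1 := s.sq_F (s.ι_F.2 (y_mem b))

variable [Finite G] {c : Co G} {D W : Subgroup G}

theorem nP (hD : c.Db D) : c.P ≤ 𝐍[D] := fun _ hn => mem_norm_of_cj_le (cj_le_iff.2 (hD.nNE _ (c.P_le_NE hn)))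

theorem nP' (hW : c.symm.Db W) : c.P ≤ 𝐍[W] := by
  have := nP hW
  rwa [show c.symm.toLw = c.toLw.symm from rfl, Lw.symm_P] at this

theorem ph_Z (hD : c.Db D) {d : G} (hd : d ∈ D) (h : nr c.r1 d = 1) : ph c.t d ∈ c.Z :=
  Z_of_nr _ (hD.dbl.mem d hd) (by rw [← ph_nr hD.dbl (nP hD c.r1P) (c.tc c.r1L) hd, h, ph_one c.tt])

theorem cent_y (hD : c.Db D) {d : G} (hd : d ∈ D) (h : nr c.r1 d = 1) (b : K4) :
    c.ι (y b) * d = d * c.ι (y b) := by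
  have hz := ph_Z hD hd h
  have hJ := fun b => F0_le (y_mem b)
  have k1 : ∀ b, ∃ g ∈ c.Z, c.ι (y b) * d * (c.ι (y b))⁻¹ = g * d := fun b => by
    have h1 := conj_mem_of_norm (nP hD (c.ιP (y b))) hd
    refine ⟨c.ι (y b) * d * (c.ι (y b))⁻¹ * d, ?_, by rw [mul_assoc _ d d, hD.dbl.sq d hd, mul_one]⟩
    by_cases hb : b = 0
    · rw [hb, y_zero, inv_one, one_mul, mul_one, hD.dbl.sq d hd]; exact one_mem _
    refine Z_of_comm _ (hD.dbl.mul_mem_of_eq h1 hd ?_) hb ?_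
    · rw [ph_conj (c.tc (c.ιL _)), Z_comm _ hz (hJ b), mul_inv_cancel_right]
    · conv => rhs; rw [hD.dbl.comm _ h1 d hd]
      rw [← mul_assoc, ← mul_assoc, ← mul_assoc, y_sq', one_mul, mul_assoc d (_ * _ * _), inv_mul_cancel_right,
        inv_eq_of_mul_eq_one_right (y_sq' _ b), mul_assoc]
  choose γ hγ eγ using k1
  have k2 : ∀ b b', γ (b + b') = γ b' * γ b := fun b b' => by
    have h1 := eγ (b + b')
    rw [← (by decide +kernel : ∀ b b', y b * y b' = y (b + b')), map_mul] at h1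
    refine mul_right_cancel (b := d) (h1.symm.trans ?_)
    calc _ = c.ι (y b) * (c.ι (y b') * d * (c.ι (y b'))⁻¹) * (c.ι (y b))⁻¹ := by group
      _ = _ := by rw [eγ, ← mul_assoc, Z_comm _ (hγ b') (hJ b), mul_assoc (γ b'), mul_assoc (γ b'), eγ, mul_assoc]
  have k3 : ∀ b, γ (om * b) = γ b := fun b => by
    have hk : c.r1 * c.r2⁻¹ ∈ c.P := mul_mem c.r1P (inv_mem c.r2P)
    have kz : ∀ g ∈ c.Z, c.r1 * c.r2⁻¹ * g * (c.r1 * c.r2⁻¹)⁻¹ = g := fun g hg => by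
      have := r12_Z _ (conj_mem_of_norm' (c.P_norm_Z c.r2P) hg)
      calc _ = c.r1 * (c.r2⁻¹ * g * c.r2) * c.r1⁻¹ := by group
        _ = _ := by rw [this]; group
    have ky : c.r1 * c.r2⁻¹ * c.ι (y b) * (c.r1 * c.r2⁻¹)⁻¹ = c.ι (y (om * b)) := by
      rw [← (by decide +kernel : ∀ b, rho 1 om (y b) = y (om * b)), ← c.act1 _ (hJ b)]
      calc _ = c.r1 * (c.r2⁻¹ * (c.ι (y b) * c.r2)) * c.r1⁻¹ := by group
        _ = _ := by rw [← y_r2]; group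
    have h1 := conj_mem_of_norm (nP hD hk) hd
    have h2 : c.r1 * c.r2⁻¹ * d * (c.r1 * c.r2⁻¹)⁻¹ * d ∈ c.Z := by
      refine Z_of_nr _ (hD.dbl.mul_mem_of_eq h1 hd (by rw [ph_conj (c.tc (c.P_le_L hk)), kz _ hz])) ?_
      rw [nr_mul' hD.dbl (nP hD c.r1P) h1 hd, nr_conj, h,
        show (c.r1 * c.r2⁻¹)⁻¹ * c.r1 * (c.r1 * c.r2⁻¹) = c.r1 by
          rw [mul_inv_rev, inv_inv, inv_mul_cancel_right, ← mul_assoc, ← c.r12, mul_inv_cancel_right], h]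
      simp
    obtain ⟨g, hg, e⟩ : ∃ g ∈ c.Z, c.r1 * c.r2⁻¹ * d * (c.r1 * c.r2⁻¹)⁻¹ = g * d :=
      ⟨_, h2, by rw [mul_assoc _ d d, hD.dbl.sq d hd, mul_one]⟩
    have h3 := conj_congr (g := c.r1 * c.r2⁻¹) rfl (c.ι (y b) * d * (c.ι (y b))⁻¹)
    conv at h3 => rhs; rw [eγ, ← conj_mul, kz _ (hγ b), e]
    rw [← conj_mul, ← conj_mul, ← conj_inv, ky, e, ← mul_assoc, Z_comm _ hg (hJ _), mul_assoc g, mul_assoc g, eγ,
      ← mul_assoc, ← mul_assoc, c.comm_E (c.Z_le_E hg) (c.Z_le_E (hγ _))] at h3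
    simpa using h3
  have h0 : γ 0 = 1 := by simpa [y_zero] using eγ 0
  have h1 := k2 (b + om * b) (om * (om * b))
  rw [(by decide +kernel : ∀ b : K4, b + om * b + om * (om * b) = 0), h0, k2, k3, k3,
    c.sq_E (c.Z_le_E (hγ b)), mul_one] at h1
  have h2 := eγ b
  rwa [← h1, one_mul, mul_inv_eq_iff_eq_mul] at h2

theorem cent_F (hD : c.Db D) {d : G} (hd : d ∈ D) (h : nr c.r1 d = 1) {f : G} (hf : f ∈ c.F) : d * f = f * d := by
  obtain ⟨p, hp, rfl⟩ := hf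
  rw [(by decide +kernel : ∀ p ∈ F0, p = y p.b * w p.c) p hp, map_mul, ← mul_assoc, ← cent_y hD hd h, mul_assoc,
    hD.dbl.comm d hd _ (hD.dbl.le (c.ι_E.2 (Z0_leE (w_mem _)))), mul_assoc]

theorem mem_W (hD : c.Db D) (hW : c.symm.Db W) {d : G} (hd : d ∈ D) (h : nr c.r1 d = 1) : d ∈ D ⊓ W :=
  ⟨hd, hW.mem d (fun e he => cent_F hD hd h (c.toLw.symm_E ▸ he)) (c.toLw.symm_E ▸ c.Z_le_F (ph_Z hD hd h))
    (hD.dbl.sq d hd) fun e => c.toLw.symm_E ▸ c.Z_le_F (Z_of_nr _ (hD.dbl.ker hd e) h)⟩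

theorem comm_y (hD : c.Db D) {a : G} (ha : a ∈ D) (h : c.r1 * a * c.r1⁻¹ = a) (b : K4) :
    nr c.r1 (c.ι (y b) * a * (c.ι (y b))⁻¹ * a) = 1 := by
  by_cases hb : b = 0
  · simp [hb, y_zero, hD.dbl.sq a ha, nr]
  have h1 := conj_mem_of_norm (nP hD (c.ιP (y b))) ha
  have h2 := mul_mem h1 ha
  have h3 := nr_fix hD.dbl (nP hD c.r1P) c.r1_cube h2
  have h4 : nr c.r1 (c.ι (y b) * a * (c.ι (y b))⁻¹ * a) ∈ c.E := by
    refine hD.dbl.ker (nr_mem hD.dbl (nP hD c.r1P) h2) ?_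
    obtain ⟨p, hp, e⟩ := hD.dbl.mem a ha
    rw [ph_nr hD.dbl (nP hD c.r1P) (c.tc c.r1L) h2, hD.dbl.mul h1 ha, ph_conj (c.tc (c.ιL _)), ← e, c.ι_conj,
      ← map_mul]
    exact nr_Z _ (c.ι_Z.2 ((by decide +kernel : ∀ b, ∀ p ∈ E0, y b * p * (y b)⁻¹ * p ∈ Z0) b p hp))
  have h5 : c.ι (y b) * nr c.r1 (c.ι (y b) * a * (c.ι (y b))⁻¹ * a) * (c.ι (y b))⁻¹ =
      nr c.r1 (c.ι (y b) * a * (c.ι (y b))⁻¹ * a) := by
    haveI : IsMulCommutative D := ⟨⟨fun x y => Subtype.ext (hD.dbl.comm _ x.2 _ y.2)⟩⟩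
    letI : CommGroup D := { (inferInstance : Group D) with mul_comm := fun x y => Subtype.ext (hD.dbl.comm _ x.2 _ y.2) }
    obtain ⟨Y, hY⟩ := exists_act (nP hD (c.ιP (y b)))
    obtain ⟨R, hR⟩ := exists_act (nP hD c.r1P)
    have := add_ext.1 (add_N Y R (fun x => add_ext.2 (hD.dbl.sq _ (mul_mem x.toMul.2 x.toMul.2)))
      (fun x => add_ext.2 (by simpa [hY, mul_assoc] using conj_congr (y_sq' c.toLw b) x.toMul))
      (fun x => add_ext.2 (by simpa [hR, mul_assoc, pow_three] using conj_congr c.r1_cube x.toMul))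
      (fun x => add_ext.2 (by simpa [hR, hY, mul_assoc] using conj_congr (y_r1 c.toLw b) x.toMul))
      (a := Additive.ofMul ⟨a, ha⟩) (n := Additive.ofMul ⟨_, nr_mem hD.dbl (nP hD c.r1P) h2⟩)
      (add_ext.2 ((hR _).trans h)) (add_ext.2 (by
        simp only [toMul_add, coe_mul, hR, hY, toMul_ofMul, sub_eq_add_neg, toMul_neg, coe_inv, hD.dbl.inv ha,
          conj_conj c.r1_cube, nr]))).2
    rwa [hY] at this
  obtain ⟨p, hp, e⟩ := h4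
  rw [← e, c.act1 _ (E0_le hp), c.ι_eq] at h3
  rw [← e, c.ι_conj, c.ι_eq] at h5
  rw [← e, (by decide +kernel : ∀ b, b ≠ 0 → ∀ p ∈ E0, rho 1 om p = p → y b * p * (y b)⁻¹ = p → p = 1) b hb p hp h3 h5,
    map_one]

theorem comm_F' (hD : c.Db D) (hW : c.symm.Db W) {d : G} (hd : d ∈ D) {f : G} (hf : f ∈ c.F) :
    ∃ g ∈ D ⊓ W, d * f * d = f * g := by
  have hr := nP hD c.r1P
  have h1 := nr_mem hD.dbl hr hd
  have h2 := cent_F hD (mul_mem hd h1) (nr_nr hD.dbl hr c.r1_cube hd) hf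
  obtain ⟨p, hp, rfl⟩ := hf
  have h3 := mem_W hD hW (mul_mem (conj_mem_of_norm (nP hD (c.ιP (y p.b))) h1) h1)
    (comm_y hD h1 (nr_fix hD.dbl hr c.r1_cube hd) p.b)
  refine ⟨_, h3, ?_⟩
  obtain ⟨a, ha⟩ : ∃ a, a = nr c.r1 d := ⟨_, rfl⟩
  rw [← ha] at h1 h2 ⊢
  have h4 : d * c.ι p * d = a * c.ι p * a := by
    calc _ = a * (a * d * c.ι p) * d := by rw [← mul_assoc, ← mul_assoc, hD.dbl.sq a h1, one_mul]
      _ = _ := by rw [hD.dbl.comm a h1 d hd, h2, hD.dbl.comm d hd a h1, ← mul_assoc, ← mul_assoc, mul_assoc _ d d,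
        hD.dbl.sq d hd, mul_one]
  have h5 := hD.dbl.comm a h1 _ (hD.dbl.le (c.ι_E.2 (Z0_leE (w_mem p.c))))
  rw [h4, inv_eq_of_mul_eq_one_right (y_sq' _ _)]
  conv => lhs; rw [(by decide +kernel : ∀ p ∈ F0, p = w p.c * y p.b) p hp, map_mul]
  conv => rhs; lhs; rw [(by decide +kernel : ∀ p ∈ F0, p = w p.c * y p.b) p hp, map_mul]
  rw [← mul_assoc a, h5]
  simp only [mul_assoc]
  rw [← mul_assoc (c.ι (y p.b)) (c.ι (y p.b)), y_sq', one_mul]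

theorem on0' (hD : c.Db D) (hW : c.symm.Db W) {e : G} (he : e ∈ c.Z) : ∃ d ∈ D ⊓ W, ph c.t d = e := by
  obtain ⟨d, hd, rfl⟩ := hD.dbl.onto e (c.Z_le_E he)
  have hr := nP hD c.r1P
  have h1 := nr_mem hD.dbl hr hd
  exact ⟨_, mem_W hD hW (mul_mem hd h1) (nr_nr hD.dbl hr c.r1_cube hd), by
    rw [hD.dbl.mul hd h1, ph_nr hD.dbl hr (c.tc c.r1L) hd, nr_Z _ he, mul_one]⟩

theorem Z_le (hD : c.Db D) (hW : c.symm.Db W) : c.Z ≤ D ⊓ W :=
  le_inf (c.Z_le_E.trans hD.dbl.le) (c.Z_le_F.trans (c.toLw.symm_E ▸ hW.dbl.le))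

theorem cent_E (hD : c.Db D) (hW : c.symm.Db W) {d v e : G} (hd : d ∈ D) (hv : v ∈ W) (he : e ∈ c.E) :
    v * d * v * d * e = e * (v * d * v * d) := by
  obtain ⟨g, hg, e1⟩ := comm_F' hW hD.symm_symm hv (c.toLw.symm_F ▸ he)
  have h1 := hD.dbl.comm d hd _ (mul_mem (hD.dbl.le he) hg.2)
  have h2 := hW.dbl.sq v hv
  calc _ = v * (d * (v * e * v)) * (v * d) := by
        rw [mul_assoc _ d, hD.dbl.comm d hd e (hD.dbl.le he)]
        simp only [mul_assoc]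
        rw [← mul_assoc v v, h2, one_mul]
    _ = _ := by
        rw [e1, h1, ← e1]
        simp only [mul_assoc]
        rw [← mul_assoc v v, h2, one_mul]

theorem cm' (hD : c.Db D) (hW : c.symm.Db W) {d v : G} (hd : d ∈ D) (hv : v ∈ W) : d * v * d * v ∈ D ⊓ W := by
  have dd := hD.dbl.sq d hd
  have vv := hW.dbl.sq v hv
  have he := hD.dbl.mem d hd
  have hf : ph c.t v ∈ c.F := c.toLw.symm_E ▸ hW.dbl.mem v hv
  have hi : (v * d * v * d)⁻¹ = d * v * d * v := by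
    simp only [mul_inv_rev, hD.dbl.inv hd, hW.dbl.inv hv, mul_assoc]
  have cE : ∀ e ∈ c.E, d * v * d * v * e = e * (d * v * d * v) := fun e he =>
    hi ▸ (Commute.inv_left (cent_E hD hW hd hv he)).eq
  have cF : ∀ f ∈ c.F, d * v * d * v * f = f * (d * v * d * v) := fun f hf =>
    cent_E hW hD.symm_symm hv hd (c.toLw.symm_E ▸ hf)
  have h1 : ph c.t (d * v * d * v) ∈ D ⊓ W := by
    obtain ⟨g1, hg1, e1⟩ := comm_F' hD hW hd hf
    obtain ⟨g2, hg2, e2⟩ := comm_F' hW hD.symm_symm hv (c.toLw.symm_F ▸ he)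
    have t1 := hD.dbl.tdt hd
    have t2 : c.t * v * c.t = v * ph c.t v := hW.dbl.tdt hv
    obtain ⟨e, ee⟩ : ∃ e, e = ph c.t d := ⟨_, rfl⟩
    obtain ⟨f, ef⟩ : ∃ f, f = ph c.t v := ⟨_, rfl⟩
    rw [← ee] at he e2 t1
    rw [← ef] at hf e1 t2
    have hfW : f ∈ W := hW.dbl.le (c.toLw.symm_E ▸ hf)
    have h2 : f * e * f * e ∈ c.Z := by
      obtain ⟨p, hp, rfl⟩ := he
      obtain ⟨q, hq, rfl⟩ := hf
      rw [← map_mul, ← map_mul, ← map_mul, c.ι_Z]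
      exact (by decide +kernel : ∀ p ∈ E0, ∀ q ∈ F0, q * p * q * p ∈ Z0) p hp q hq
    have h3 : ph c.t (d * v * d * v) = f * e * f * e * (g2 * g1) := by
      rw [ph, ← hi, inv_inv, hi]
      calc _ = d * v * d * v * ((c.t * v * c.t) * (c.t * d * c.t) * (c.t * v * c.t) * (c.t * d * c.t)) := by
            simp only [mul_assoc]
            rw [← mul_assoc c.t c.t, ← mul_assoc c.t c.t, ← mul_assoc c.t c.t, c.tt, one_mul, one_mul, one_mul]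
        _ = d * (v * (d * f * d)) * e * v * f * d * e := by
            rw [t1, t2]
            simp only [mul_assoc]
            rw [← mul_assoc v v, vv, one_mul]
        _ = f * (d * (v * e * v)) * f * d * e := by
            rw [hW.dbl.comm v hv _ (e1 ▸ mul_mem hfW hg1.2)]
            simp only [mul_assoc]
            rw [← mul_assoc d d, dd, one_mul]
        _ = f * e * g2 * (d * f * d) * e := by
            rw [hD.dbl.comm d hd _ (e2 ▸ mul_mem (hD.dbl.le he) hg2.2), e2]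
            simp only [mul_assoc]
        _ = _ := by
            rw [e1, mul_assoc _ g2, ← mul_assoc g2, hW.dbl.comm g2 hg2.1 f hfW, mul_assoc _ e (g2 * g1),
              ← hD.dbl.comm _ (mul_mem hg2.2 hg1.1) e (hD.dbl.le he)]
            simp only [mul_assoc]
    rw [h3]
    exact mul_mem (Z_le hD hW h2) (mul_mem ⟨hg2.2, hg2.1⟩ hg1)
  obtain ⟨u, hu⟩ : ∃ u, u = d * v * d * v := ⟨_, rfl⟩
  rw [← hu] at h1 cE cF hi ⊢
  have h2 : ph c.t (ph c.t u) = 1 := by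
    rw [ph_eq_one_iff c.tt]
    conv => rhs; rw [← hD.dbl.inv h1.1]
    simp only [ph, mul_inv_rev, inv_inv, c.ti, mul_assoc, c.tt, mul_one]
    rw [← mul_assoc c.t c.t, c.tt, one_mul]
  have h3 : ph c.t u ∈ c.Z := c.E_inf_F ▸ ⟨hD.dbl.ker h1.1 h2, c.toLw.symm_E ▸ hW.dbl.ker h1.2 h2⟩
  obtain ⟨g, hg, eg⟩ := on0' hD hW h3
  have gE : ∀ e ∈ c.E, u * g * e = e * (u * g) := fun e he =>
    Commute.mul_left (cE e he) (hD.dbl.comm g hg.1 e (hD.dbl.le he))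
  have hy := c.ι_F.2 (y_mem 1)
  have gF : c.ι (y 1) * (u * g) = u * g * c.ι (y 1) :=
    (Commute.mul_left (cF _ hy) (hW.dbl.comm g hg.2 _ (hW.dbl.le (c.toLw.symm_E ▸ hy)))).symm
  rcases hD.dbl.cen (u * g) ((ph_eq_one_iff c.tt).1 (by
    rw [ph_mul c.tt, eg, cE _ (c.Z_le_E h3), mul_inv_cancel_right, c.sq_E (c.Z_le_E h3)])) gE with h4 | h4
  · exact (mul_mem_cancel_right hg).1 (Z_le hD hW (Z_of_comm _ h4 one_ne_zero gF))
  exfalso
  have h5 := Z_of_comm _ h4 one_ne_zero (Commute.mul_right gF (c.tc (c.ιL _))).eq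
  have h6 : u * c.t ∈ D ⊓ W := by
    have := mul_mem (Z_le hD hW h5) (show c.t * g * c.t ∈ D ⊓ W from ⟨hD.dbl.tdt_mem hg.1, hW.dbl.tdt_mem hg.2⟩)
    rwa [← mul_assoc, ← mul_assoc, mul_assoc _ c.t c.t, c.tt, mul_one, mul_assoc _ g g, hD.dbl.sq g hg.1, mul_one] at this
  obtain ⟨k, hk⟩ : ∃ k, k = u * c.t := ⟨_, rfl⟩
  rw [← hk] at h6
  have h7 : u = k * c.t := by rw [hk, mul_assoc, c.tt, mul_one]
  have h8 : d * u * d = u⁻¹ := by
    rw [inv_eq_iff_eq_inv.2 hi.symm, hu]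
    simp only [← mul_assoc, dd, one_mul]
  have h9 : ph c.t d = ph c.t k := by
    have t1 := conj_t c.tt d
    rw [hD.dbl.inv hd] at t1
    rw [h7, mul_inv_rev, c.ti, hD.dbl.inv h6.1, ← mul_assoc, hD.dbl.comm d hd k h6.1, mul_assoc k, mul_assoc k,
      t1] at h8
    refine mul_left_cancel (a := k) ?_
    rw [← hD.dbl.tdt h6.1, ← h8, mul_assoc, mul_assoc, c.tt, mul_one]
  have h10 := hD.dbl.mul_mem_of_eq hd h6.1 h9
  obtain ⟨g2, hg2, e2⟩ := comm_F' hW hD.symm_symm hv (c.toLw.symm_F ▸ h10)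
  have h11 : v * d * v ∈ D := by
    have := mul_mem (e2 ▸ mul_mem (hD.dbl.le h10) hg2.2) h6.1
    rwa [mul_assoc _ v, hW.dbl.comm v hv k h6.2, ← mul_assoc, mul_assoc v, mul_assoc d, hD.dbl.sq k h6.1,
      mul_one] at this
  have h12 : u ∈ D := by
    rw [hu, mul_assoc, mul_assoc, ← mul_assoc v]; exact mul_mem hd h11
  exact hD.dbl.nt ((mul_mem_cancel_left h12).1 (hk ▸ h6.1))

end J1

variable [Finite G]

theorem Co.Db.dw {c : Co G} {D W : Subgroup G} (hD : c.Db D) (hW : c.symm.Db W) : c.DW D W := by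
  have hZ : ∀ d ∈ D ⊓ W, ph c.t d ∈ c.Z := fun d hd =>
    c.E_inf_F ▸ ⟨hD.dbl.mem d hd.1, c.toLw.symm_E ▸ hW.dbl.mem d hd.2⟩
  refine ⟨hD, hW, fun d hd v hv => ?_, fun p hp => J1.on0' hD hW (c.ι_Z.2 hp), hZ, fun d hd => ?_⟩
  · exact inf_comm D W ▸ J1.cm' hW hD.symm_symm hv hd
  have r1 := J1.nP hD c.r1P
  have r2 := J1.nP hD c.r2P
  have h1 := conj_mem_of_norm r1 hd.1
  have h2 := conj_mem_of_norm r2 hd.1
  have e : ph c.t (c.r1 * d * c.r1⁻¹) = ph c.t (c.r2 * d * c.r2⁻¹) := by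
    rw [ph_conj (c.tc c.r1L), ph_conj (c.tc c.r2L), J1.r12_Z _ (hZ d hd)]
  have h3 : c.r1 * d * c.r1⁻¹ * (c.r2 * d * c.r2⁻¹) ∈ c.Z :=
    c.E_inf_F ▸ ⟨hD.dbl.mul_mem_of_eq h1 h2 e, c.toLw.symm_E ▸ hW.dbl.mul_mem_of_eq
      (conj_mem_of_norm (J1.nP' hW c.r1P) hd.2) (conj_mem_of_norm (J1.nP' hW c.r2P) hd.2) e⟩
  have h4 := J1.r12_Z _ h3
  have f1 : d * (c.r1 * d * c.r1⁻¹) * (c.r1⁻¹ * d * c.r1) = 1 := hW.fpf d hd.2
  have f2 := hD.fpf d hd.1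
  rw [← conj_mul (b := c.r1) (a := c.r1 * d * c.r1⁻¹), ← conj_mul (b := c.r2) (a := c.r1 * d * c.r1⁻¹),
    J1.conj_conj c.r1_cube, J1.conj_conj c.r2_cube, show c.r2 * (c.r1 * d * c.r1⁻¹) * c.r2⁻¹ =
      c.r1 * (c.r2 * d * c.r2⁻¹) * c.r1⁻¹ by simpa [mul_assoc] using conj_congr c.r12.symm d,
    hD.dbl.comm _ (conj_mem_of_norm' r1 hd.1) _ (conj_mem_of_norm r1 h2), mul_right_inj] at h4
  rw [h4, ← f2, mul_left_inj, mul_right_inj] at f1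
  exact f1

end Cfsg.Agent.Std.W
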