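import Mathlib
import Cfsg.Agent.Std.WAct

/-!
# A standard subgroup of type `M₂₃` or `McL`: an invariant complement in the double
-/

set_option autoImplicit false

namespace Cfsg.Agent.Std.W

open Cfsg.Agent.Loc.Mss Cfsg.Agent.Wr Subgroup

universe u

variable {G : Type u} [Group G]

namespace J2

/-- The commutator of two involutions. -/
def gm (d v : G) : G := v * d * v * d

theorem gm_conj (n d v : G) : gm (n * d * n⁻¹) (n * v * n⁻¹) = n * gm d v * n⁻¹ := by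
  simp only [gm]; group

theorem nf {D : Subgroup G} (cm : ∀ a ∈ D, ∀ b ∈ D, a * b = b * a) (sq : ∀ a ∈ D, a * a = 1) {a b c d u : G}
    (ha : a ∈ D) (hb : b ∈ D) (hc : c ∈ D) (hd : d ∈ D) (hu : u ∈ closure {a, b, c, d}) :
    ∃ i j k l : ℕ, u = a ^ i * (b ^ j * (c ^ k * d ^ l)) := by
  have key : ∀ v ∈ ({a, b, c, d} : Set G), ∀ i j k l : ℕ, ∃ i' j' k' l' : ℕ,
      v * (a ^ i * (b ^ j * (c ^ k * d ^ l))) = a ^ i' * (b ^ j' * (c ^ k' * d ^ l')) := by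
    have e : ∀ {v v' : G} (n : ℕ) (r : G), v ∈ D → v' ∈ D → v * (v' ^ n * r) = v' ^ n * (v * r) :=
      fun n r h h' => (show Commute _ _ from cm _ h _ (pow_mem h' n)).left_comm r
    rintro v (rfl | rfl | rfl | rfl) i j k l
    · exact ⟨i + 1, j, k, l, by rw [pow_succ', mul_assoc]⟩
    · exact ⟨i, j + 1, k, l, by rw [e _ _ hb ha, pow_succ', mul_assoc]⟩
    · exact ⟨i, j, k + 1, l, by rw [e _ _ hc ha, e _ _ hc hb, pow_succ', mul_assoc]⟩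
    · exact ⟨i, j, k, l + 1, by rw [e _ _ hd ha, e _ _ hd hb, e _ _ hd hc, pow_succ']⟩
  induction hu using closure_induction_left with
  | one => exact ⟨0, 0, 0, 0, by simp⟩
  | mul_left v hv y _ ih =>
    obtain ⟨i, j, k, l, rfl⟩ := ih
    exact key v hv i j k l
  | inv_mul_cancel v hv y _ ih =>
    obtain ⟨i, j, k, l, rfl⟩ := ih
    have : v ∈ D := by rcases hv with rfl | rfl | rfl | rfl <;> assumption
    rw [inv_eq_of_mul_eq_one_right (sq v this)]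
    exact key v hv i j k l

theorem indep : ∀ i j k l : Fin 2, x 1 ^ i.1 * (x om ^ j.1 * (w 1 ^ k.1 * w om ^ l.1)) = 1 →
    i.1 = 0 ∧ j.1 = 0 ∧ k.1 = 0 ∧ l.1 = 0 := by decide +kernel

theorem span : ∀ p ∈ E0, ∃ i j k l : Fin 2, p = x 1 ^ i.1 * (x om ^ j.1 * (w 1 ^ k.1 * w om ^ l.1)) := by
  decide +kernel

theorem fix1 : ∀ p ∈ E0, rho 1 om p = p → fi * p * fi⁻¹ = p → p = 1 ∨ p = x 1 := by decide +kernel
theorem fixZ : ∀ p ∈ Z0, fi * p * fi⁻¹ = p → p = 1 ∨ p = w 1 := by decide +kernel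

variable {c : Co G} {D W : Subgroup G}

theorem ph_pow {t : G} {V : Subgroup G} (h : Dbl t V D) {d : G} (hd : d ∈ D) (n : ℕ) :
    ph t (d ^ n) = ph t d ^ n := by
  induction n with
  | zero => rw [pow_zero, pow_zero]; exact h.ph_V (one_mem _)
  | succ n ih => rw [pow_succ, pow_succ, h.mul (pow_mem hd n) hd, ih]

theorem dW (h : c.DW D W) : Dbl c.t c.F W := c.toLw.symm_E ▸ h.hW.dbl

theorem conj_eq (h : c.DW D W) {d v : G} (hd : d ∈ D) (hv : v ∈ W) : v * d * v⁻¹ = d * gm d v := by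
  rw [gm, h.hD.dbl.comm d hd _ (h.cm d hd v hv).1, (dW h).inv hv, mul_assoc _ d d, h.hD.dbl.sq d hd, mul_one]

theorem gm_left (h : c.DW D W) {d d' v : G} (hd : d ∈ D) (hd' : d' ∈ D) (hv : v ∈ W) :
    gm (d * d') v = gm d v * gm d' v := by
  have e1 := conj_eq h (mul_mem hd hd') hv
  have e2 : v * (d * d') * v⁻¹ = v * d * v⁻¹ * (v * d' * v⁻¹) := by group
  rw [e2, conj_eq h hd hv, conj_eq h hd' hv, mul_assoc, ← mul_assoc (gm d v),
    ← h.hD.dbl.comm d' hd' _ (show gm d v ∈ D from (h.cm d hd v hv).1), mul_assoc, mul_assoc] at e1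
  exact (mul_left_cancel (mul_left_cancel e1)).symm

theorem gm_symm (h : c.DW D W) {d v : G} (hd : d ∈ D) (hv : v ∈ W) : gm v d = gm d v := by
  rw [← h.hD.dbl.inv (show gm d v ∈ D from (h.cm d hd v hv).1)]
  simp only [gm, mul_inv_rev, h.hD.dbl.inv hd, (dW h).inv hv, mul_assoc]

theorem gm_right (h : c.DW D W) {d v v' : G} (hd : d ∈ D) (hv : v ∈ W) (hv' : v' ∈ W) :
    gm d (v * v') = gm d v * gm d v' := by
  rw [← gm_symm h hd (mul_mem hv hv'), gm_left h.symm hv hv' hd, gm_symm h hd hv, gm_symm h hd hv']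

theorem gm_one (h : c.DW D W) {d v : G} (hd : d ∈ W) (hv : v ∈ W) : gm d v = 1 := by
  rw [gm, (dW h).comm v hv d hd, mul_assoc d v v, (dW h).sq v hv, mul_one, (dW h).sq d hd]

theorem r_inv {r : G} (h : r ^ 3 = 1) (d : G) : r * (r * d * r⁻¹) * r⁻¹ = r⁻¹ * d * r := by
  have e : r⁻¹ = r * r := inv_eq_of_mul_eq_one_right (by rw [← h, pow_three])
  calc _ = r * r * d * (r * r)⁻¹ := by group
    _ = _ := by rw [← e, inv_inv]

theorem fi_inv (c : Co G) : (c.ι fi)⁻¹ = c.ι fi := by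
  rw [← map_inv, inv_eq_of_mul_eq_one_right fi_sq]

/-- Two elements fixed by `fi` in `D ⊓ W` with the same image. -/
theorem two_fix (h : c.DW D W) {u v : G} (hu : u ∈ D ⊓ W) (hv : v ∈ D ⊓ W) (e : ph c.t u = ph c.t v)
    (fu : c.ι fi * u * (c.ι fi)⁻¹ = u) (fv : c.ι fi * v * (c.ι fi)⁻¹ = v) : v = u ∨ v = u * c.z := by
  obtain ⟨p, hp, ep⟩ : u * v ∈ c.Z :=
    c.E_inf_F ▸ ⟨h.hD.dbl.mul_mem_of_eq hu.1 hv.1 e, (dW h).mul_mem_of_eq hu.2 hv.2 e⟩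
  have e1 : v = u * c.ι p := by rw [ep, ← mul_assoc, h.hD.dbl.sq u hu.1, one_mul]
  rcases fixZ p hp (c.ι_eq.1 (by rw [← c.ι_conj, ep, ← conj_mul, fu, fv])) with rfl | rfl
  · exact .inl (by rw [e1, map_one, mul_one])
  · exact .inr e1

variable [Finite G]

theorem nP (hD : c.Db D) {n d : G} (hn : n ∈ c.P) (hd : d ∈ D) : n * d * n⁻¹ ∈ D :=
  hD.nNE n (c.P_le_NE hn) d hd

theorem exists_a (hD : c.Db D) : ∃ a ∈ D, ph c.t a = c.ι (x 1) ∧ c.r1 * a * c.r1⁻¹ = a ∧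
    c.ι fi * a * (c.ι fi)⁻¹ = a := by
  obtain ⟨a0, h0, p0⟩ := hD.dbl.onto _ (c.ι_E.2 (x_mem 1))
  have rx : ∀ s, c.r1 * c.ι (x s) * c.r1⁻¹ = c.ι (x s) := fun s => by
    rw [c.act1 _ (E0_le (x_mem s)), (by decide +kernel : ∀ s, rho 1 om (x s) = x s)]
  have h1 := nP hD c.r1P h0
  have h2 := nP hD c.r1P h1
  have p1 : ph c.t (c.r1 * a0 * c.r1⁻¹) = c.ι (x 1) := by rw [ph_conj (c.tc c.r1L), p0, rx]
  have p2 : ph c.t (c.r1 * (c.r1 * a0 * c.r1⁻¹) * c.r1⁻¹) = c.ι (x 1) := by rw [ph_conj (c.tc c.r1L), p1, rx]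
  obtain ⟨a, ha, pa, ra⟩ : ∃ a ∈ D, ph c.t a = c.ι (x 1) ∧ c.r1 * a * c.r1⁻¹ = a := by
    refine ⟨_, mul_mem h0 (mul_mem h1 h2), ?_, ?_⟩
    · rw [hD.dbl.mul h0 (mul_mem h1 h2), hD.dbl.mul h1 h2, p0, p1, p2, c.sq_E (c.ι_E.2 (x_mem 1)), mul_one]
    · rw [← conj_mul, ← conj_mul (a := c.r1 * a0 * c.r1⁻¹), r_inv c.r1_cube (c.r1 * a0 * c.r1⁻¹),
        show c.r1⁻¹ * (c.r1 * a0 * c.r1⁻¹) * c.r1 = a0 by group, hD.dbl.comm a0 h0 _ (mul_mem h1 h2)]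
      simp only [mul_assoc]
  have h3 := nP hD (c.ιP fi) ha
  obtain ⟨p, hp, ep⟩ := hD.dbl.mul_mem_of_eq ha h3 (by
    rw [ph_conj (c.tc (c.ιL fi)), pa, c.ι_conj, (by decide +kernel : fi * x 1 * fi⁻¹ = x 1)])
  have e1 : c.ι fi * a * (c.ι fi)⁻¹ = a * c.ι p := by rw [ep, ← mul_assoc, hD.dbl.sq a ha, one_mul]
  have e2 : c.r1 * (c.ι fi * a * (c.ι fi)⁻¹) * c.r1⁻¹ = c.ι fi * a * (c.ι fi)⁻¹ := by
    calc _ = c.ι fi * ((c.ι fi)⁻¹ * c.r1 * c.ι fi) * a * ((c.ι fi)⁻¹ * c.r1 * c.ι fi)⁻¹ * (c.ι fi)⁻¹ := by group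
      _ = c.ι fi * (c.r1⁻¹ * (c.r1 * a * c.r1⁻¹) * c.r1) * (c.ι fi)⁻¹ := by
        rw [fi_inv c, c.fi_r1, ra]; group
      _ = _ := by group
  rcases fix1 p hp (c.ι_eq.1 (by rw [← c.act1 p (E0_le hp), ep, ← conj_mul, ra, e2])) (c.ι_eq.1 (by
    rw [← c.ι_conj, ep, ← conj_mul, hD.dbl.comm a ha _ h3]
    congr 1
    calc _ = c.ι fi * c.ι fi * a * (c.ι fi * c.ι fi)⁻¹ := by group
      _ = a := by rw [← map_mul, fi_sq, map_one]; group)) with rfl | rfl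
  · exact ⟨a, ha, pa, ra, by rw [e1, map_one, mul_one]⟩
  · refine ⟨a * c.ι (x om), mul_mem ha (hD.dbl.le (c.ι_E.2 (x_mem _))), ?_, by rw [← conj_mul, ra, rx], ?_⟩
    · rw [ph_mul_of_comm (c.tc (c.ιL _)), pa]
    · rw [← conj_mul, e1, c.ι_conj, mul_assoc, ← map_mul,
        (by decide +kernel : x 1 * (fi * x om * fi⁻¹) = x om)]

theorem norm_cl {s : Set G} {g : G} (h : ∀ v ∈ s, g * v * g⁻¹ ∈ closure s) : g ∈ 𝐍[closure s] :=
  mem_norm_of_cj_le (cj_le_iff_le_inv.2 ((closure_le _).2 fun v hv => mem_cj.2 (by simpa using h v hv)))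

theorem main (h : c.DW D W) {a g : G} (ha : a ∈ D) (pa : ph c.t a = c.ι (x 1)) (ra : c.r1 * a * c.r1⁻¹ = a)
    (fa : c.ι fi * a * (c.ι fi)⁻¹ = a) (hg : g ∈ W) (pg : ph c.t g = c.ι (y 1)) (rg : c.r2 * g * c.r2⁻¹ = g)
    (fg : c.ι fi * g * (c.ι fi)⁻¹ = g) (e12 : gm (c.ι (x 1)) g = gm a (c.ι (y 1)))
    (pz : ph c.t (gm a (c.ι (y 1))) = c.z) (fz : c.ι fi * gm a (c.ι (y 1)) * (c.ι fi)⁻¹ = gm a (c.ι (y 1))) :
    ∃ U, c.Sec D W U g ∧ (c.Split U g ∨ c.Four U g) := by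
  have dD := h.hD.dbl
  have dV := dW h
  have yW : ∀ s, c.ι (y s) ∈ W := fun s => dV.le (c.ι_F.2 (y_mem s))
  have xD : ∀ s, c.ι (x s) ∈ D := fun s => dD.le (c.ι_E.2 (x_mem s))
  have ry : ∀ s, c.r2 * c.ι (y s) * c.r2⁻¹ = c.ι (y s) := fun s => by
    rw [c.act2 _ (F0_le (y_mem s)), (by decide +kernel : ∀ s, rho om 1 (y s) = y s)]
  have hz : gm a (c.ι (y 1)) ∈ D ⊓ W := h.cm a ha _ (yW 1)
  have hz0 : gm a g ∈ D ⊓ W := h.cm a ha g hg
  have ez : gm a (c.ι (y om)) = c.r2 * gm a (c.ι (y 1)) * c.r2⁻¹ := by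
    rw [← h.r12 _ hz, ← gm_conj, ra, c.act1 _ (F0_le (y_mem 1)), (by decide +kernel : rho 1 om (y 1) = y om)]
  have tat : gm (c.t * a * c.t) g = gm a g * gm a (c.ι (y 1)) := by
    rw [dD.tdt ha, pa, gm_left h ha (xD 1) hg, e12]
  have p0 : ph c.t (gm a g) = ph c.t (gm a (c.ι (y 1))) := by
    have e1 := gm_conj c.t a g
    rw [c.ti, dD.tdt hz0.1, dV.tdt hg, pg, gm_right h (dD.tdt_mem ha) hg (yW 1), tat, dD.tdt ha, pa,
      gm_left h ha (xD 1) (yW 1), mul_assoc, mul_right_inj, ← mul_assoc, dD.sq _ hz.1, one_mul] at e1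
    rw [pz, ← e1, gm, ← map_mul, ← map_mul, ← map_mul]
    exact congrArg c.ι (by decide +kernel)
  have c0 := two_fix h hz hz0 p0.symm fz (by rw [← gm_conj, fa, fg])
  generalize hz1 : gm a (c.ι (y 1)) = z1 at *
  have hz' : c.r2 * z1 * c.r2⁻¹ ∈ D ⊓ W := ez ▸ h.cm a ha _ (yW om)
  have ha' := nP h.hD c.r2P ha
  set s : Set G := {a, c.r2 * a * c.r2⁻¹, z1, c.r2 * z1 * c.r2⁻¹} with hs
  have m1 : a ∈ closure s := subset_closure (by simp [hs])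
  have m2 : c.r2 * a * c.r2⁻¹ ∈ closure s := subset_closure (by simp [hs])
  have m3 : z1 ∈ closure s := subset_closure (by simp [hs])
  have m4 : c.r2 * z1 * c.r2⁻¹ ∈ closure s := subset_closure (by simp [hs])
  have hle : closure s ≤ D := (closure_le _).2 (by
    rintro v (rfl | rfl | rfl | rfl)
    exacts [ha, ha', hz.1, hz'.1])
  have m5 : ∀ d ∈ closure s, c.r2 * d * c.r2⁻¹ ∈ closure s → c.r2⁻¹ * d * c.r2 ∈ closure s := fun d h1 h2 => by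
    rw [eq_inv_of_mul_eq_one_right (h.hD.fpf d (hle h1))]
    exact inv_mem (mul_mem h1 h2)
  have n2 : c.r2 ∈ 𝐍[closure s] := norm_cl (by
    rintro v (rfl | rfl | rfl | rfl)
    · exact m2
    · rw [r_inv c.r2_cube]; exact m5 _ m1 m2
    · exact m4
    · rw [r_inv c.r2_cube]; exact m5 _ m3 m4)
  have pa' : ph c.t (c.r2 * a * c.r2⁻¹) = c.ι (x om) := by
    rw [ph_conj (c.tc c.r2L), pa, c.act2 _ (E0_le (x_mem 1)), (by decide +kernel : rho om 1 (x 1) = x om)]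
  have pz' : ph c.t (c.r2 * z1 * c.r2⁻¹) = c.ι (w om) := by
    rw [ph_conj (c.tc c.r2L), pz, Lw.z, c.act2 _ (E0_le (Z0_leE (w_mem 1))),
      (by decide +kernel : rho om 1 (w 1) = w om)]
  have pp : ∀ i j k l : ℕ, ph c.t (a ^ i * ((c.r2 * a * c.r2⁻¹) ^ j * (z1 ^ k * (c.r2 * z1 * c.r2⁻¹) ^ l))) =
      c.ι (x 1 ^ i * (x om ^ j * (w 1 ^ k * w om ^ l))) := fun i j k l => by
    rw [dD.mul (pow_mem ha i) (mul_mem (pow_mem ha' j) (mul_mem (pow_mem hz.1 k) (pow_mem hz'.1 l))),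
      dD.mul (pow_mem ha' j) (mul_mem (pow_mem hz.1 k) (pow_mem hz'.1 l)),
      dD.mul (pow_mem hz.1 k) (pow_mem hz'.1 l), ph_pow dD ha, ph_pow dD ha', ph_pow dD hz.1, ph_pow dD hz'.1,
      pa, pa', pz, pz', Lw.z]
    simp only [map_mul, map_pow]
  have ind : ∀ Q : G → Prop, (∀ u ∈ D, ∀ u' ∈ D, Q u → Q u' → Q (u * u')) →
      (∀ u, Q u → Q (c.r2 * u * c.r2⁻¹)) → Q a → (∀ u ∈ W, Q u) → ∀ u ∈ closure s, Q u := by
    intro Q q1 q2 q3 q4 u hu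
    induction hu using closure_induction with
    | mem v hv =>
      rcases hv with rfl | rfl | rfl | rfl
      exacts [q3, q2 _ q3, q4 _ hz.2, q4 _ hz'.2]
    | one => exact q4 _ (one_mem _)
    | mul v v' hv hv' i1 i2 => exact q1 _ (hle hv) _ (hle hv') i1 i2
    | inv v hv i1 => rwa [dD.inv (hle hv)]
  have tm : ∀ u u' : G, c.t * (u * u') * c.t = c.t * u * c.t * (c.t * u' * c.t) := fun u u' => by
    calc _ = c.t * u * (c.t * c.t) * u' * c.t := by rw [c.tt]; group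
      _ = _ := by group
  have tr : ∀ u : G, c.t * (c.r2 * u * c.r2⁻¹) * c.t = c.r2 * (c.t * u * c.t) * c.r2⁻¹ := fun u => by
    calc _ = c.t * c.r2 * u * (c.r2⁻¹ * c.t) := by group
      _ = _ := by rw [← c.tc c.r2L, c.tc (inv_mem c.r2L)]; group
  have g2 : ∀ u, gm (c.r2 * u * c.r2⁻¹) g = c.r2 * gm u g * c.r2⁻¹ := fun u => by rw [← gm_conj, rg]
  have g3 : ∀ u, gm (c.r2 * u * c.r2⁻¹) (c.ι (y 1)) = c.r2 * gm u (c.ι (y 1)) * c.r2⁻¹ := fun u => by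
    rw [← gm_conj, ry]
  refine ⟨closure s, ⟨hle, fun u hu e => ?_, ?_, fun p hp u hu => conj_mem_of_norm (c.P_le (c.T_le_of
    (norm_cl fun v hv => ?_) (norm_cl ?_) (norm_cl ?_)) (norm_cl ?_) n2 hp) hu, hg, pg⟩, ?_⟩
  · obtain ⟨i, j, k, l, rfl⟩ := nf dD.comm dD.sq ha ha' hz.1 hz'.1 hu
    have e2 : ∀ {d : G} (n : ℕ), d ∈ D → d ^ n = d ^ (n % 2) := fun n hd =>
      pow_eq_pow_mod n (by rw [sq, dD.sq _ hd])
    rw [e2 i ha, e2 j ha', e2 k hz.1, e2 l hz'.1] at e ⊢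
    rw [pp, c.ι_eq_one] at e
    obtain ⟨e3, e4, e5, e6⟩ := indep ⟨_, Nat.mod_lt i two_pos⟩ ⟨_, Nat.mod_lt j two_pos⟩
      ⟨_, Nat.mod_lt k two_pos⟩ ⟨_, Nat.mod_lt l two_pos⟩ e
    simp only at e3 e4 e5 e6
    simp [e3, e4, e5, e6]
  · rintro _ ⟨p, hp, rfl⟩
    obtain ⟨i, j, k, l, rfl⟩ := span p hp
    exact ⟨_, mul_mem (pow_mem m1 _) (mul_mem (pow_mem m2 _) (mul_mem (pow_mem m3 _) (pow_mem m4 _))), pp _ _ _ _⟩
  · rw [dD.comm _ (xD om) v (hle (subset_closure hv)), mul_inv_cancel_right]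
    exact subset_closure hv
  · have e1 : c.ι (y om) * a * (c.ι (y om))⁻¹ ∈ closure s := by
      rw [conj_eq h ha (yW om), ez]; exact mul_mem m1 m4
    rintro v (rfl | rfl | rfl | rfl)
    · exact e1
    · have := conj_mem_of_norm n2 e1
      rwa [← conj_mul, ← conj_mul, ← conj_inv, ry] at this
    · rwa [dV.comm _ (yW om) _ hz.2, mul_inv_cancel_right]
    · rwa [dV.comm _ (yW om) _ hz'.2, mul_inv_cancel_right]
  · have e1 : ∀ d, c.ι fi * d * (c.ι fi)⁻¹ = d →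
        c.ι fi * (c.r2 * d * c.r2⁻¹) * (c.ι fi)⁻¹ = c.r2⁻¹ * d * c.r2 := fun d e => by
      calc _ = c.ι fi * c.r2 * (c.ι fi)⁻¹ * (c.ι fi * d * (c.ι fi)⁻¹) * (c.ι fi * c.r2 * (c.ι fi)⁻¹)⁻¹ := by group
        _ = _ := by rw [e, fi_inv c, c.fi_r2, inv_inv]
    rintro v (rfl | rfl | rfl | rfl)
    · rwa [fa]
    · rw [e1 _ fa]; exact m5 _ m1 m2
    · rwa [fz]
    · rw [e1 _ fz]; exact m5 _ m3 m4
  · rintro v (rfl | rfl | rfl | rfl)
    · rwa [ra]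
    · rwa [show c.r1 * (c.r2 * a * c.r2⁻¹) * c.r1⁻¹ = c.r1 * c.r2 * a * (c.r1 * c.r2)⁻¹ by group, c.r12,
        show c.r2 * c.r1 * a * (c.r2 * c.r1)⁻¹ = c.r2 * (c.r1 * a * c.r1⁻¹) * c.r2⁻¹ by group, ra]
    · rwa [h.r12 _ hz]
    · rw [h.r12 _ hz']; exact conj_mem_of_norm n2 m4
  · rcases c0 with e | e
    · refine .inl fun u hu => ?_
      have := ind (fun u => gm u g = gm u (c.ι (y 1)) ∧ gm (c.t * u * c.t) g = 1)
        (fun u hu u' hu' q q' => ⟨by rw [gm_left h hu hu' hg, gm_left h hu hu' (yW 1), q.1, q'.1],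
          by rw [tm, gm_left h (dD.tdt_mem hu) (dD.tdt_mem hu') hg, q.2, q'.2, mul_one]⟩)
        (fun u q => ⟨by rw [g2, g3, q.1], by rw [tr, g2, q.2]; group⟩)
        ⟨by rw [e, hz1], by rw [tat, e, dD.sq _ hz.1]⟩
        (fun u hu => ⟨by rw [gm_one h hu hg, gm_one h hu (yW 1)], gm_one h (dV.tdt_mem hu) hg⟩) u hu
      exact ⟨by rw [conj_eq h (hle hu) hg, this.1]; rfl,
        by rw [conj_eq h (dD.tdt_mem (hle hu)) hg, this.2, mul_one]⟩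
    · refine .inr fun u hu => ?_
      have e' : gm a g = c.t * z1 * c.t := by rw [e, dD.tdt hz.1, pz]
      have := ind (fun u => gm u g = c.t * gm u (c.ι (y 1)) * c.t ∧
          gm (c.t * u * c.t) g = gm u (c.ι (y 1)) * (c.t * gm u (c.ι (y 1)) * c.t))
        (fun u hu u' hu' q q' => ⟨by rw [gm_left h hu hu' hg, gm_left h hu hu' (yW 1), q.1, q'.1, tm],
          by
            rw [tm, gm_left h (dD.tdt_mem hu) (dD.tdt_mem hu') hg, q.2, q'.2, gm_left h hu hu' (yW 1), tm,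
              mul_assoc, mul_assoc (gm u _) (gm u' _), mul_right_inj, ← mul_assoc, ← mul_assoc (gm u' _),
              dD.comm _ (dD.tdt_mem (show gm u _ ∈ D from (h.cm u hu _ (yW 1)).1)) _
                (show gm u' _ ∈ D from (h.cm u' hu' _ (yW 1)).1)]⟩)
        (fun u q => ⟨by rw [g2, g3, q.1, tr], by rw [tr, g2, q.2, g3, tr, conj_mul]⟩)
        ⟨by rw [e', hz1], by rw [tat, e', hz1, dD.comm _ hz.1 _ (dD.tdt_mem hz.1)]⟩
        (fun u hu => ⟨by rw [gm_one h hu hg, gm_one h hu (yW 1), mul_one, c.tt],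
          by rw [gm_one h (dV.tdt_mem hu) hg, gm_one h hu (yW 1), mul_one, c.tt, mul_one]⟩) u hu
      exact ⟨by rw [conj_eq h (hle hu) hg, this.1]; rfl,
        by rw [conj_eq h (dD.tdt_mem (hle hu)) hg, this.2, ← mul_assoc]; rfl⟩

end J2

open J2

theorem Co.DW.exists_sec [Finite G] {c : Co G} {D W : Subgroup G} (h : c.DW D W) :
    ∃ U g, c.Sec D W U g ∧ (c.Split U g ∨ c.Four U g) := by
  obtain ⟨a, ha, pa, ra, fa⟩ := exists_a h.hD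
  obtain ⟨g, hg, pg, rg, fg⟩ := exists_a h.hW
  change ph c.t g = c.ι (y 1) at pg
  change c.r2 * g * c.r2⁻¹ = g at rg
  change c.ι fi * g * (c.ι fi)⁻¹ = g at fg
  have dD := h.hD.dbl
  have dV := dW h
  have yW : c.ι (y 1) ∈ W := dV.le (c.ι_F.2 (y_mem 1))
  have xD : c.ι (x 1) ∈ D := dD.le (c.ι_E.2 (x_mem 1))
  have fx : c.ι fi * c.ι (x 1) * (c.ι fi)⁻¹ = c.ι (x 1) := by
    rw [c.ι_conj, (by decide +kernel : fi * x 1 * fi⁻¹ = x 1)]
  have fy : c.ι fi * c.ι (y 1) * (c.ι fi)⁻¹ = c.ι (y 1) := by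
    rw [c.ι_conj, (by decide +kernel : fi * y 1 * fi⁻¹ = y 1)]
  have p1 : ph c.t (gm a (c.ι (y 1))) = c.z := by
    rw [gm]
    nth_rewrite 2 [← dV.inv yW]
    rw [dD.mul (nP h.hD (c.ιP _) ha) ha, ph_conj (c.tc (c.ιL _)), pa, c.ι_conj, ← map_mul]
    exact congrArg c.ι (by decide +kernel)
  have p2 : ph c.t (gm (c.ι (x 1)) g) = c.z := by
    rw [← gm_symm h xD hg, gm]
    nth_rewrite 2 [← dD.inv xD]
    rw [dV.mul (nP h.hW (c.toLw.symm_P ▸ c.ιP _) hg) hg, ph_conj (c.tc (c.ιL _)), pg, c.ι_conj, ← map_mul]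
    exact congrArg c.ι (by decide +kernel)
  have f1 : c.ι fi * gm a (c.ι (y 1)) * (c.ι fi)⁻¹ = gm a (c.ι (y 1)) := by rw [← gm_conj, fa, fy]
  rcases two_fix h (h.cm a ha _ yW) (h.cm _ xD g hg) (p1.trans p2.symm) f1
    (by change _ * gm _ _ * _ = gm _ _; rw [← gm_conj, fx, fg]) with e | e
  · obtain ⟨U, hU⟩ := main h ha pa ra fa hg pg rg fg e p1 f1
    exact ⟨U, g, hU⟩
  · obtain ⟨U, hU⟩ := main h ha pa ra fa (mul_mem hg yW) (by rw [ph_mul_of_comm (c.tc (c.ιL _)), pg])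
      (by rw [← conj_mul, rg, c.act2 _ (F0_le (y_mem 1)), (by decide +kernel : rho om 1 (y 1) = y 1)])
      (by rw [← conj_mul, fg, fy]) (by
        rw [gm_right h xD hg yW]
        change gm _ _ = gm _ _ * _ at e
        have e1 : gm (c.ι (x 1)) (c.ι (y 1)) = c.z := by
          rw [gm, ← map_mul, ← map_mul, ← map_mul]
          exact congrArg c.ι (by decide +kernel)
        rw [e, e1, mul_assoc, c.z_sq, mul_one]) p1 f1
    exact ⟨U, _, hU⟩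

end Cfsg.Agent.Std.W
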