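import Mathlib
import Cfsg.Agent.Std.WAct
import Cfsg.Agent.GT.Quasisimple
import Cfsg.Agent.GT.PPrimeCore

/-!
# Lifting the configuration from the simple group to the standard subgroup
-/

set_option autoImplicit false
set_option linter.unusedSectionVars false

namespace Cfsg.Agent.Std.W

open Cfsg.Agent.Loc.Mss Cfsg.Agent.Wr Subgroup

universe u v

variable {G : Type u} [Group G] [Finite G]

namespace Lift

/-- `E` and `F` are not conjugate in `L`. -/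
theorem not_cj (s : Lw G) {l : G} (hl : l ∈ s.L) : cj(l, s.E) ≠ s.F := fun e => by
  have h1 : Syl 2 s.T (s.L ⊓ 𝐍[s.F]) := s.sylT.mono (le_inf s.T_le (s.T_le_P.trans s.P_norm_F)) inf_le_left
  have h2 : Syl 2 cj(l, s.T) (s.L ⊓ 𝐍[s.F]) := (s.sylT.cj_mem hl).mono (le_inf (cj_le_of_mem s.T_le hl) (by
    rw [← e, ← cj_norm]; exact cj_mono l (s.T_le_P.trans s.P_norm_E))) inf_le_left
  obtain ⟨n, hn, h3⟩ := h2.conj_eq h1
  rw [cj_cj, cj_eq_iff] at h3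
  have h4 : cj(n * l, s.E) = s.F := by rw [← cj_cj, e, cj_of_norm hn.2]
  have h5 : n * l ∉ 𝐍[s.E] := fun h => s.E_ne_F ((cj_of_norm h).symm.trans h4)
  have h6 : (n * l) ^ 2 ∈ 𝐍[s.E] := by
    rcases s.norm_T_cases h3 with h | h
    · exact absurd h.1 h5
    · rw [← cj_eq_iff, pow_two, ← cj_cj, h.1, h.2]
  obtain ⟨k, m, ⟨j, hj⟩, h7⟩ := Nat.exists_eq_two_pow_mul_odd (orderOf_pos (n * l)).ne'
  have h8 : IsPGroup 2 (zpowers ((n * l) ^ m)) := by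
    obtain ⟨i, -, hi⟩ := (Nat.dvd_prime_pow Nat.prime_two).1 (orderOf_dvd_of_pow_eq_one
      (show ((n * l) ^ m) ^ 2 ^ k = 1 by rw [← pow_mul, mul_comm m, ← h7, pow_orderOf_eq_one]))
    exact IsPGroup.of_card (by rw [Nat.card_zpowers, hi])
  have h9 := s.T_le_P.trans s.P_norm_E (s.sylT.le_of_norm' h8 (zpowers_le.2 (pow_mem (mul_mem hn.1 hl) m))
    (zpowers_le.2 (pow_mem h3 m)) (mem_zpowers _))
  rw [hj, pow_succ, pow_mul] at h9
  exact h5 ((mul_mem_cancel_left (pow_mem h6 j)).1 h9)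

variable {A : Type v} [Group A] {L : Subgroup G} {π : L →* A}

/-- `π` maps `L` onto `A` with kernel the centre, of odd order. -/
structure Pr (L : Subgroup G) (π : L →* A) : Prop where
  qs : IsQuasisimple L
  surj : Function.Surjective π
  ker : ∀ x : L, π x = 1 ↔ (x : G) ∈ 𝐂[L]
  odd : ∀ x : L, π x = 1 → Odd (orderOf x)

namespace Pr

variable (h : Pr L π)
include h

theorem cen {x : L} (hx : π x = 1) : x ∈ center L := mem_center_iff.2 fun y => Subtype.ext ((h.ker x).1 hx y y.2)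

theorem two_eq {x y : L} {n m : ℕ} (x2 : x ^ 2 ^ n = 1) (y2 : y ^ 2 ^ m = 1) (e : π x = π y) : x = y := by
  have e' : π (x⁻¹ * y) = 1 := by rw [map_mul, map_inv, e, inv_mul_cancel]
  have c : Commute x (x⁻¹ * y) := mem_center_iff.1 (h.cen e') x
  have h1 : (x⁻¹ * y) ^ 2 ^ (n + m) = 1 := by
    have := c.mul_pow (2 ^ (n + m))
    rwa [mul_inv_cancel_left, pow_add, pow_mul x, x2, one_pow, one_mul, mul_comm, pow_mul y, y2, one_pow, mul_comm,
      ← pow_add, eq_comm] at this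
  have h3 := (h.odd _ e').coprime_two_right.pow_right (n + m)
  exact inv_mul_eq_one.1 (orderOf_eq_one_iff.1 (h3.eq_one_of_dvd (orderOf_dvd_of_pow_eq_one h1)))

theorem exists_lift {B : Type*} [Group B] (ι : B →* A) (hι : Syl 2 ι.range ⊤) :
    ∃ κ : B →* L, (∀ p, π (κ p) = ι p) ∧ Syl 2 κ.range ⊤ := by
  have : Finite A := .of_surjective π h.surj
  obtain ⟨S, hS⟩ := Syl.exists 2 (⊤ : Subgroup L)
  have h1 := hS.map π
  rw [← MonoidHom.range_eq_map, MonoidHom.range_eq_top.2 h.surj] at h1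
  obtain ⟨a, -, ha⟩ := h1.conj_eq hι
  obtain ⟨l, rfl⟩ := h.surj a
  rw [← map_cj] at ha
  have h2 := hS.cj_mem (mem_top l)
  generalize cj(l, S) = R at ha h2
  have h3 : Function.Injective (π.comp R.subtype) := fun x y e => by
    obtain ⟨n, hn⟩ := two_elt h2.pg x.2
    obtain ⟨m, hm⟩ := two_elt h2.pg y.2
    exact Subtype.ext (h.two_eq hn hm e)
  have h4 : ∀ p, ι p ∈ (π.comp R.subtype).range := fun p => by
    rw [MonoidHom.range_comp, range_subtype, ha]; exact ⟨p, rfl⟩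
  let ψ : B →* R := (MonoidHom.ofInjective h3).symm.toMonoidHom.comp (ι.codRestrict _ h4)
  have h5 : ∀ p, π (ψ p) = ι p := fun p => MonoidHom.apply_ofInjective_symm h3 ⟨ι p, h4 p⟩
  refine ⟨R.subtype.comp ψ, h5, ?_⟩
  have h6 : (R.subtype.comp ψ).range = R := by
    refine le_antisymm (by rintro _ ⟨p, rfl⟩; exact (ψ p).2) fun x hx => ?_
    obtain ⟨p, hp⟩ : π x ∈ ι.range := ha ▸ mem_map_of_mem π hx
    exact ⟨p, congrArg Subtype.val (h3 (a₁ := ψ p) (a₂ := ⟨x, hx⟩) ((h5 p).trans hp))⟩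
  rwa [h6]

theorem exists_aut : ∃ Φ : 𝐍[L] →* MulAut A, ∀ g x, Φ g (π x) = π (L.normalizerMonoidHom g x) := by
  have : Finite A := .of_surjective π h.surj
  have h1 : ∀ g : 𝐍[L], ∃ α : MulAut A, ∀ x, α (π x) = π (L.normalizerMonoidHom g x) := fun g => by
    let φ : MulAut L := L.normalizerMonoidHom g
    let β : A →* A := π.liftOfSurjective h.surj ⟨π.comp φ.toMonoidHom, fun x hx =>
      (h.ker _).2 (conj_mem_of_norm (norm_cent le_rfl g.2) ((h.ker x).1 hx))⟩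
    have hβ : ∀ x, β (π x) = π (φ x) := fun x => MonoidHom.liftOfRightInverse_comp_apply _ _ _ _ _
    exact ⟨MulEquiv.ofBijective β (Finite.surjective_iff_bijective.1 fun q => by
      obtain ⟨x, rfl⟩ := h.surj q
      exact ⟨π (φ⁻¹ x), by rw [hβ]; simp⟩), hβ⟩
  choose Φ hΦ using h1
  refine ⟨MonoidHom.mk' Φ fun g g' => MulEquiv.ext fun a => ?_, hΦ⟩
  obtain ⟨x, rfl⟩ := h.surj a
  rw [MulAut.mul_apply, hΦ, hΦ, hΦ, map_mul, MulAut.mul_apply]

variable {Φ : 𝐍[L] →* MulAut A} (hΦ : ∀ g x, Φ g (π x) = π (L.normalizerMonoidHom g x))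
include hΦ

theorem aut_one {g : 𝐍[L]} (hg : Φ g = 1) : (g : G) ∈ 𝐂[L] := fun x hx => by
  have := h.qs.1
  have h1 := GT.perfect_hom_eq_self (L.normalizerMonoidHom g).toMonoidHom (fun y => h.cen (by
    rw [map_mul, map_inv, MulEquiv.coe_toMonoidHom, ← hΦ, hg, MulAut.one_apply, mul_inv_cancel])) ⟨x, hx⟩
  exact (mul_inv_eq_iff_eq_mul.1 (congrArg Subtype.val h1)).symm

theorem aut_mem (l : L) : Φ ⟨l, le_normalizer l.2⟩ = MulAut.conj (π l) := MulEquiv.ext fun a => by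
  obtain ⟨x, rfl⟩ := h.surj a
  rw [hΦ, MulAut.conj_apply, ← map_inv, ← map_mul, ← map_mul]
  rfl

theorem inn_iff {g : 𝐍[L]} : Φ g ∈ Inn A ↔ (g : G) ∈ L ⊔ 𝐂[L] := by
  constructor
  · rintro ⟨a, e⟩
    obtain ⟨l, rfl⟩ := h.surj a
    have h1 := h.aut_one hΦ (g := (⟨l, le_normalizer l.2⟩ : 𝐍[L])⁻¹ * g) (by
      rw [map_mul, map_inv, h.aut_mem hΦ, e, inv_mul_cancel])
    simpa using mul_mem (mem_sup_left l.2) (mem_sup_right (S := L) h1)
  · intro hg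
    obtain ⟨l, hl, c, hc, e⟩ := (mem_sup_norm (cent_le_norm L)).1 hg
    refine ⟨π ⟨l, hl⟩, MulEquiv.ext fun a => ?_⟩
    obtain ⟨x, rfl⟩ := h.surj a
    rw [hΦ, MulAut.conj_apply, ← map_inv, ← map_mul, ← map_mul]
    refine congrArg π (Subtype.ext ?_)
    show l * x * l⁻¹ = g * x * (g : G)⁻¹
    rw [← e, mul_assoc l c, ← hc x x.2]
    group

end Pr

end Lift

open Lift

theorem exists_bas {A : Type} [Group A] (m : Mod A) {L : Subgroup G} (hL : IsStandardSubgroup L)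
    (e : ↥L ⧸ oddCore ↥L ≃* A) : ∃ b : Bas G, b.L = L ∧ b.εE = true := by
  let π : L →* A := e.toMonoidHom.comp (QuotientGroup.mk' (oddCore L))
  have hπ : ∀ x, π x = 1 ↔ x ∈ oddCore L := fun x => by
    rw [← QuotientGroup.eq_one_iff]; exact map_eq_one_iff e e.injective
  have hs : Function.Surjective π := e.surjective.comp (QuotientGroup.mk'_surjective _)
  have : Finite A := .of_surjective π hs
  have h : Pr L π := by
    refine ⟨hL.1, hs, fun x => ⟨fun hx => ?_, fun hx => m.cen _ fun a => ?_⟩, fun x hx =>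
      GT.odd_card_oddCore.of_dvd_nat (orderOf_dvd_natCard _ ((hπ x).1 hx))⟩
    · rcases hL.1.normal_eq_top_or_le_center (oddCore L) with h1 | h1
      · obtain ⟨y, hy⟩ := hs m.z
        exact absurd (hy ▸ (hπ y).2 (h1 ▸ mem_top y)) m.z_ne
      · exact fun y hy => congrArg Subtype.val (mem_center_iff.1 (h1 ((hπ x).1 hx)) ⟨y, hy⟩)
    · obtain ⟨y, rfl⟩ := hs a
      rw [← map_mul, ← map_mul, show y * x = x * y from Subtype.ext (hx y y.2)]
  obtain ⟨κ, hκ, hS⟩ := h.exists_lift m.ι (m.top ▸ m.syl)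
  obtain ⟨r1, h1⟩ := hs m.r1
  obtain ⟨r2, h2⟩ := hs m.r2
  obtain ⟨hE, h3⟩ := hs m.hE
  obtain ⟨hF, h4⟩ := hs m.hF
  have act : ∀ (r : L) p q, π r * m.ι p * (π r)⁻¹ = m.ι q →
      (r : G) * L.subtype.comp κ p * (r : G)⁻¹ = L.subtype.comp κ q := fun r p q e => by
    obtain ⟨n, hn⟩ := pg p
    obtain ⟨k, hk⟩ := pg q
    exact congrArg Subtype.val (h.two_eq (x := r * κ p * r⁻¹) (y := κ q) (n := n) (m := k)
      (by rw [conj_pow, ← map_pow, hn, map_one, mul_one, mul_inv_cancel]) (by rw [← map_pow, hk, map_one])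
      (by rw [map_mul, map_mul, map_inv, hκ, hκ, e]))
  have cc : ∀ x : L, π x ∈ 𝐂[m.L] → (x : G) ∈ 𝐂[L] := fun x hx =>
    (h.ker x).1 (m.cen _ fun a => hx a (m.top ▸ mem_top a))
  have cV : ∀ V : Subgroup T0, (∀ g ∈ m.L, (∀ p ∈ V, g * m.ι p = m.ι p * g) → ∃ p ∈ V, g * m.ι p ∈ 𝐂[m.L]) →
      ∀ g ∈ L, (∀ p ∈ V, g * L.subtype.comp κ p = L.subtype.comp κ p * g) →
        ∃ p ∈ V, g * L.subtype.comp κ p ∈ 𝐂[L] := fun V hV g hg hc => by
    obtain ⟨p, hp, e⟩ := hV (π ⟨g, hg⟩) (m.top ▸ mem_top _) fun p hp => by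
      rw [← hκ, ← map_mul, ← map_mul, show (⟨g, hg⟩ : L) * κ p = κ p * ⟨g, hg⟩ from Subtype.ext (hc p hp)]
    exact ⟨p, hp, cc (⟨g, hg⟩ * κ p) (by rwa [map_mul, hκ])⟩
  let s : Lw G :=
    { L := L
      ι := L.subtype.comp κ
      r1 := r1
      r2 := r2
      hE := hE
      hF := hF
      εE := m.εE
      εF := m.εF
      inj := L.subtype_injective.comp fun p q e => m.inj (by rw [← hκ, e, hκ])
      r1L := r1.2
      r2L := r2.2
      hEL := hE.2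
      hFL := hF.2
      syl := by
        have := hS.map L.subtype
        rwa [map_subtype_top, ← MonoidHom.range_comp] at this
      act1 := fun p hp => act r1 _ _ (h1 ▸ m.act1 p hp)
      act2 := fun p hp => act r2 _ _ (h2 ▸ m.act2 p hp)
      actE := fun p hp => act hE _ _ (h3 ▸ m.actE p hp)
      actF := fun p hp => act hF _ _ (h4 ▸ m.actF p hp)
      c1 := cc (r1 ^ 3) (by rw [map_pow, h1]; exact m.c1)
      c2 := cc (r2 ^ 3) (by rw [map_pow, h2]; exact m.c2)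
      c12 := cc (r1 * r2 * r1⁻¹ * r2⁻¹) (by simp only [map_mul, map_inv, h1, h2]; exact m.c12)
      f1 := cc (κ fi * r1 * κ fi * r1) (by simp only [map_mul, hκ, h1]; exact m.f1)
      f2 := cc (κ fi * r2 * κ fi * r2) (by simp only [map_mul, hκ, h2]; exact m.f2)
      cE := cV E0 m.cE
      cF := cV F0 m.cF
      zodd := fun g hg hc => by
        have := h.odd ⟨g, hg⟩ ((h.ker _).2 hc)
        rwa [← orderOf_coe] at this }
  obtain ⟨Φ, hΦ⟩ := h.exists_aut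
  have hV : ∀ (V : Subgroup T0) (g : 𝐍[L]), (g : G) ∈ 𝐍[V.map s.ι] → ∀ p ∈ V, ∃ q ∈ V, Φ g (m.ι p) = m.ι q :=
    fun V g hg p hp => by
      obtain ⟨q, hq, e⟩ := conj_mem_of_norm hg (mem_map_of_mem s.ι hp)
      exact ⟨q, hq, by rw [← hκ, hΦ, ← hκ]; exact congrArg π (Subtype.ext e.symm)⟩
  have hN : ∀ (γ : MulAut A) (a : A), (∀ p ∈ E0, ∃ q ∈ F0, γ (m.ι p) = a * m.ι q * a⁻¹) → γ ∉ Inn A := by
    rintro _ a hγ ⟨c, rfl⟩
    refine not_cj m.toLw (l := a⁻¹ * c) (m.top ▸ mem_top _) (eq_of_le_of_card_ge (cj_le_iff.2 ?_)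
      (by rw [card_cj, m.card_E, m.card_F]))
    rintro _ ⟨p, hp, rfl⟩
    obtain ⟨q, hq, e⟩ := hγ p hp
    refine ⟨q, hq, ?_⟩
    calc m.ι q = a⁻¹ * (a * m.ι q * a⁻¹) * a := by group
      _ = _ := by rw [← e, MulAut.conj_apply]; group
  have hO : (∀ γ, γ ∈ Inn A) ∨ ((Inn A).index = 2 ∧ ∃ α : MulAut A, α * α = 1 ∧
      ∃ a, ∀ p ∈ E0, ∃ q ∈ F0, α (m.ι p) = a * m.ι q * a⁻¹) :=
    m.out.imp (fun e γ => (index_eq_one (H := Inn A)).1 e ▸ mem_top γ) fun ⟨e, α, e', ha⟩ => ⟨e, α, MulEquiv.ext e', ha⟩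
  refine ⟨⟨s, hL, ?_, fun g hg hg' => (h.inn_iff hΦ (g := ⟨g, hg⟩)).1 ?_, fun g hg hg' => (h.inn_iff hΦ (g := ⟨g, hg⟩)).1 ?_,
    fun g hg g' hg' => ?_, fun g hg hg' => ?_⟩, rfl, m.a7⟩
  · have h5 : (s.NE ⊔ s.NF).subgroupOf L ⊔ center L = ⊤ := by
      have h8 : s.P ≤ s.NE ⊔ s.NF := s.P_le_NE.trans le_sup_left
      have h6 : m.P ≤ ((s.NE ⊔ s.NF).subgroupOf L).map π := m.P_le
        (fun p => ⟨κ p, h8 (s.ιP p), hκ p⟩) ⟨r1, h8 s.r1P, h1⟩ ⟨r2, h8 s.r2P, h2⟩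
      have h7 := sup_le (m.NE_le h6 ⟨hE, (le_sup_left : s.NE ≤ s.NE ⊔ s.NF) s.hE_mem, h3⟩)
        (m.NF_le h6 ⟨hF, (le_sup_right : s.NF ≤ s.NE ⊔ s.NF) s.hF_mem, h4⟩)
      refine eq_top_iff.2 fun x _ => ?_
      obtain ⟨y, hy, e⟩ := h7 (m.gen ▸ mem_top (π x))
      rw [← mul_inv_cancel_left y x]
      exact mul_mem (mem_sup_left hy) (mem_sup_right (h.cen (by rw [map_mul, map_inv, e, inv_mul_cancel])))
    exact subgroupOf_eq_top.1 (hL.1.eq_top_of_sup_center h5)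
  · rcases hO with hO | ⟨hi, α, -, a, ha⟩
    · exact hO _
    by_contra hn
    refine hN (α * Φ ⟨g, hg⟩) a (fun p hp => ?_) ((mul_mem_iff_of_index_two hi).2 (iff_of_false (hN α a ha) hn))
    obtain ⟨q, hq, e⟩ := hV E0 ⟨g, hg⟩ hg' p hp
    rw [MulAut.mul_apply, e]
    exact ha q hq
  · rcases hO with hO | ⟨hi, α, -, a, ha⟩
    · exact hO _
    by_contra hn
    refine hN (Φ ⟨g, hg⟩ * α) (Φ ⟨g, hg⟩ a) (fun p hp => ?_)
      ((mul_mem_iff_of_index_two hi).2 (iff_of_false hn (hN α a ha)))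
    obtain ⟨q, hq, e⟩ := ha p hp
    obtain ⟨q', hq', e'⟩ := hV F0 ⟨g, hg⟩ hg' q hq
    exact ⟨q', hq', by rw [MulAut.mul_apply, e, map_mul, map_mul, map_inv, e']⟩
  · rcases hO with hO | ⟨hi, -⟩
    · exact .inl ((h.inn_iff hΦ (g := ⟨g, hg⟩)).1 (hO _))
    refine or_iff_not_imp_left.2 fun a1 => or_iff_not_imp_left.2 fun a2 =>
      (h.inn_iff hΦ (g := ⟨g, hg⟩ * ⟨g', hg'⟩)).1 ?_
    rw [map_mul]
    exact (mul_mem_iff_of_index_two hi).2 (iff_of_false (mt (h.inn_iff hΦ).1 a1) (mt (h.inn_iff hΦ).1 a2))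
  · have hn := mt (h.inn_iff hΦ (g := ⟨g, hg⟩)).1 hg'
    obtain ⟨hi, α, h5, a, ha⟩ := hO.resolve_left fun hO => hn (hO _)
    obtain ⟨c, e⟩ := (mul_mem_iff_of_index_two hi (a := (Φ ⟨g, hg⟩)⁻¹)).2
      (iff_of_false (mt inv_mem_iff.1 hn) (hN α a ha))
    obtain ⟨l, rfl⟩ := hs c
    refine ⟨l, l.2, h.aut_one hΦ (g := ⟨g, hg⟩ * ⟨l, le_normalizer l.2⟩ * (⟨g, hg⟩ * ⟨l, le_normalizer l.2⟩)) ?_⟩
    rw [map_mul, map_mul, h.aut_mem hΦ, e, mul_inv_cancel_left, h5]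

end Cfsg.Agent.Std.W
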