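import Mathlib
import Cfsg.Agent.Std.WAct
import Cfsg.Agent.Wr.Avg
import Cfsg.Agent.Wr.ProdA

/-!
The split case gives the wreath configuration.
-/

set_option autoImplicit false

namespace Cfsg.Agent.Std.W

open Cfsg.Agent.Loc.Mss Cfsg.Agent.Wr Cfsg.Agent.Wr.Prd Subgroup
open scoped commutatorElement

universe u

variable {G : Type u} [Group G] [Finite G]

theorem Co.Split.exists_wre {c : Co G} (a7 : c.εE = true) {D W U : Subgroup G} {g : G} (h : c.DW D W)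
    (hs : c.Sec D W U g) (h1 : c.Split U g) (X : Subgroup G) [X.Normal] (hX : c.L ≤ X) :
    ∃ θ, c.Wre c.t X θ := by
  have tt := c.tt
  have hD := h.hD.dbl
  have hW : Dbl c.t c.F W := c.toLw.symm_E ▸ h.hW.dbl
  have Nt : ∀ n ∈ c.NE, n * c.t = c.t * n := fun n hn => c.tc (c.NE_le_L hn)
  have Rt : ∀ n ∈ c.NF, n * c.t = c.t * n := fun n hn => c.tc (c.NF_le_L hn)
  have hV := c.E_ne_bot
  have nR : ∀ n ∈ c.NF, ∀ w ∈ c.F, n * w * n⁻¹ ∈ c.F := fun n hn w => conj_mem_of_norm (c.NF_norm hn)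
  have nW : ∀ n ∈ c.NF, ∀ w ∈ W, n * w * n⁻¹ ∈ W := c.toLw.symm_NE ▸ h.hW.nNE
  have TN := c.T_le_P.trans c.P_le_NE
  have NU := hD.avg Nt h.hD.nNE c.P_le_NE (c.odd_index c.P_le_NE c.NE_le_L) hs.le hs.inj hs.onto hs.nP c.endo_E
  have ND : c.NE ≤ 𝐍[D] := fun n hn => mem_norm_of_cj_le (cj_le_iff.2 (h.hD.nNE n hn))
  have n0 : 𝐍[D] ≤ 𝐍[cmod 𝐂[D] D] := norm_cmod (norm_cent le_rfl) le_rfl
  have N0 : c.NE ≤ cmod 𝐂[D] D := c.gen_y a7 (hs.phg ▸ ph_mem_cmod hD hV (h.nW hs.gW)) (ND.trans n0)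
  have NX := c.NE_le_L.trans hX
  have UX : U ≤ X := fun u hu => mem_of_fpf (hX c.r2L) (norm_normal ⊤ X (mem_top u)) (hD.sq u (hs.le hu))
    (h.hD.fpf u (hs.le hu))
  have gg := hW.sq g hs.gW
  have ey : ⁅c.ι fi, c.ι (y om)⁆ = c.ι (y 1) := by rw [← y_eq, commutatorElement_def]; simp
  have y2 : (c.ι (y 1))⁻¹ = c.ι (y 1) := inv_eq_of_mul_eq_one_right (c.sq_F (c.ι_F.2 (y_mem 1)))
  obtain ⟨K, KX, cm, on, ker⟩ := exists_K (X := X) hD hV hs.le hs.inj hs.onto UX NX Nt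
    (fun n hn => mem_norm_of_cj_le (cj_le_iff.2 (NU n hn))) N0 (fun S a b => c.gen_y a7 (ey ▸ a) b)
    (TN (c.ιT _)) (TN (c.ιT _)) (mem_of_fpf (hX c.r1L) (norm_normal ⊤ X (mem_top g)) gg (h.hW.fpf g hs.gW))
    (mem_of_fpf (N0 (c.P_le_NE c.r1P)) (n0 (h.nW hs.gW)) gg (h.hW.fpf g hs.gW)) (fun u hu => by
      have m := hs.nP _ (c.ιP (y 1)) u hu
      rw [y2] at m
      rw [(h1 u hu).1, ey, Co.eta, ← hD.comm u (hs.le hu) _ (hs.le m), ← mul_assoc, hD.sq u (hs.le hu), one_mul,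
        y2]) (fun u hu => mul_inv_eq_iff_eq_mul.1 (h1 u hu).2) fun w hw e => by
      have := h.hD.fpf w (hD.le hw)
      have r := c.P_le_NE c.r2P
      rwa [e _ r, e _ (inv_mem r), mul_inv_cancel_right, inv_mul_cancel_right, hD.sq w (hD.le hw), one_mul] at this
  obtain ⟨θ, h1, h2, h3⟩ := exists_theta tt c.pgT cm (fun l hl => on l (TN hl)) ker
  have θ1 : θ 1 = 1 := by simpa using h2 1 (one_mem _) 1 (one_mem _)
  have act : ∀ k ∈ K, ∀ a ∈ c.T, k * (c.t * k * c.t) * a * (k * (c.t * k * c.t))⁻¹ ∈ c.T →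
      k * θ a * k⁻¹ = θ (k * (c.t * k * c.t) * a * (k * (c.t * k * c.t))⁻¹) := fun k hk a ha hT => by
    obtain ⟨m1, m2, n, m3⟩ := h1 a ha
    have e : k * θ a * k⁻¹ * (c.t * (k * θ a * k⁻¹) * c.t) =
        k * (c.t * k * c.t) * a * (k * (c.t * k * c.t))⁻¹ := by
      have c1 : Commute (k * θ a * k⁻¹) (c.t * k * c.t) := cm _ (mul_mem (mul_mem hk m1) (inv_mem hk)) k hk
      have c2 : Commute k⁻¹ (c.t * θ a * c.t) := cm _ (inv_mem hk) _ m1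
      have c3 : Commute k (c.t * k * c.t) := cm k hk k hk
      calc _ = k * θ a * k⁻¹ * (c.t * k * c.t) * (c.t * θ a * c.t) * (c.t * k * c.t)⁻¹ := by
            simp [hD.ti, mul_assoc, ← mul_assoc c.t c.t, tt]
        _ = c.t * k * c.t * k * θ a * (k⁻¹ * (c.t * θ a * c.t)) * (c.t * k * c.t)⁻¹ := by rw [c1.eq]; group
        _ = c.t * k * c.t * k * (θ a * (c.t * θ a * c.t)) * (c.t * k * c.t * k)⁻¹ := by rw [c2.eq]; group
        _ = _ := by rw [m2, c3.eq]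
    exact e ▸ h3 _ (mul_mem (mul_mem hk m1) (inv_mem hk)) ⟨n, by rw [conj_pow, m3, mul_one, mul_inv_cancel]⟩ (e ▸ hT)
  have actN : ∀ l ∈ c.NE, ∀ a ∈ c.T, l * a * l⁻¹ ∈ c.T → l * θ a * l⁻¹ = θ (l * a * l⁻¹) := fun l hl a ha hT => by
    obtain ⟨k, hk, rfl⟩ := on l hl
    rw [← act k hk a ha hT, mul_assoc k, ← cm _ (h1 a ha).1 k hk]
    group
  have RT := c.F_le_T
  have sq : ∀ r ∈ c.F, θ r * θ r = 1 := fun r hr => by rw [← h2 r (RT hr) r (RT hr), c.sq_F hr, θ1]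
  have pθ : ∀ r ∈ c.F, ph c.t (θ r) = r := fun r hr => by
    rw [ph, inv_eq_of_mul_eq_one_right (sq r hr), mul_assoc, mul_assoc, ← mul_assoc c.t, (h1 r (RT hr)).2.1]
  have θW : ∀ r ∈ c.F, θ r ∈ W := fun r hr => by
    have sE : c.symm.E = c.F := c.toLw.symm_E
    refine h.hW.mem _ (sE ▸ fun r' hr' => ?_) (sE ▸ (pθ r hr).symm ▸ hr) (sq r hr) fun e => ?_
    · rw [← (h1 r' (RT hr')).2.1, ← mul_assoc, ← h2 r (RT hr) r' (RT hr'), c.comm_F hr hr',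
        h2 r' (RT hr') r (RT hr), mul_assoc, cm _ (h1 r (RT hr)).1 _ (h1 r' (RT hr')).1, ← mul_assoc]
    · rw [(pθ r hr).symm.trans e, θ1]
      exact one_mem _
  let A : Subgroup G :=
    { carrier := {w | ∃ r ∈ c.F, θ r = w}
      one_mem' := ⟨1, one_mem _, θ1⟩
      mul_mem' := by
        rintro _ _ ⟨a, ha, rfl⟩ ⟨b, hb, rfl⟩
        exact ⟨a * b, mul_mem ha hb, h2 a (RT ha) b (RT hb)⟩
      inv_mem' := by
        rintro _ ⟨a, ha, rfl⟩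
        exact ⟨a, ha, (inv_eq_of_mul_eq_one_right (sq a ha)).symm⟩ }
  have mA : ∀ w, w ∈ A ↔ ∃ r ∈ c.F, θ r = w := fun _ => Iff.rfl
  clear_value A
  have RA := hW.avg (U := A) Rt nW c.P_le_NF (c.odd_index c.P_le_NF c.NF_le_L)
    (fun w hw => by obtain ⟨r, hr, rfl⟩ := (mA w).1 hw; exact θW r hr)
    (fun w hw e => by
      obtain ⟨r, hr, rfl⟩ := (mA w).1 hw
      rw [pθ r hr] at e
      rw [e, θ1])
    (fun r hr => ⟨θ r, (mA _).2 ⟨r, hr, rfl⟩, pθ r hr⟩)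
    (fun p hp w hw => by
      obtain ⟨r, hr, rfl⟩ := (mA w).1 hw
      have := nR p (c.P_le_NF hp) r hr
      exact (mA _).2 ⟨_, this, (actN p (c.P_le_NE hp) r (RT hr) (RT this)).symm⟩)
    (c.toLw.symm_E ▸ c.toLw.symm_P ▸ c.toLw.symm.endo_E)
  have actR : ∀ l ∈ c.NF, ∀ r ∈ c.F, l * θ r * l⁻¹ = θ (l * r * l⁻¹) := fun l hl r hr => by
    obtain ⟨r', hr', e⟩ := (mA _).1 (RA l hl _ ((mA _).2 ⟨r, hr, rfl⟩))
    rw [← pθ r hr, ← ph_conj (Rt l hl), pθ r hr, ← e, pθ r' hr']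
  have nA : c.NF ≤ 𝐍[A] := fun n hn => mem_norm_of_cj_le (cj_le_iff.2 (RA n hn))
  have tA : ∀ k ∈ K, k ∈ 𝐂[cj(c.t, A)] ∧ c.t * k * c.t ∈ 𝐂[A] := fun k hk => by
    have : c.t * k * c.t ∈ 𝐂[A] := mem_cent.2 fun w hw => by
      obtain ⟨r, hr, rfl⟩ := (mA w).1 hw
      exact cm _ (h1 r (RT hr)).1 k hk
    have h' := tmem tt this
    rw [cj_cent] at h'
    exact ⟨by simpa [mul_assoc, ← mul_assoc c.t c.t, tt] using h', this⟩
  have key : c.NF ≤ ((X ⊓ 𝐂[cj(c.t, A)]) ⊓ 𝐍[A]) ⊔ 𝐂[A] := by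
    have gP : ∀ S : Subgroup G, c.P ≤ S → c.NF ≤ 𝐍[S] → c.NF ≤ S := fun S =>
      c.toLw.symm_NE ▸ c.toLw.symm_P ▸ c.symm.gen_P
    refine gP _ (fun p hp => ?_) (norm_sup (norm_inf (norm_inf (norm_normal _ X)
      (norm_cent (norm_cj_t tt Rt nA))) (norm_norm nA)) (norm_cent nA))
    obtain ⟨k, hk, e⟩ := on p (c.P_le_NE hp)
    have := nA (c.P_le_NF hp)
    rw [← e] at this ⊢
    exact mul_mem (mem_sup_left ⟨⟨KX hk, (tA k hk).1⟩, (mul_mem_cancel_right (cent_le_norm _ (tA k hk).2)).1 this⟩)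
      (mem_sup_right (tA k hk).2)
  refine ⟨MonoidHom.mk' (fun p => θ (c.ι p)) fun p q => by rw [map_mul, h2 _ (c.ιT p) _ (c.ιT q)],
    fun p => (h1 _ (c.ιT p)).2.1, fun p q => cm _ (h1 _ (c.ιT p)).1 _ (h1 _ (c.ιT q)).1,
    fun p => KX (h1 _ (c.ιT p)).1, fun l hl => ?_, fun l hl => ?_⟩
  · obtain ⟨k, hk, rfl⟩ := on l hl
    exact ⟨k, KX hk, fun q => cm k hk _ (h1 _ (c.ιT q)).1, fun p q e =>
      (act k hk _ (c.ιT p) (e ▸ c.ιT q)).trans (congrArg θ e)⟩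
  · obtain ⟨k, hk, d, hd, e⟩ := (mem_sup_norm' (inf_le_right.trans (norm_cent le_rfl))).1 (key hl)
    refine ⟨k, hk.1.1, fun q hq => (mem_cent.1 hk.1.2 _ (tmem tt ((mA _).2 ⟨_, c.ι_F.2 hq, rfl⟩))).symm,
      fun p hp q e' => ?_⟩
    change k * θ (c.ι p) * k⁻¹ = θ (c.ι q)
    rw [← e', ← actR l hl _ (c.ι_F.2 hp), ← e, mul_assoc k d, ← mem_cent.1 hd _ ((mA _).2 ⟨_, c.ι_F.2 hp, rfl⟩)]
    group

end Cfsg.Agent.Std.W
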