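import Mathlib
import Cfsg.Agent.Std.WAct
import Cfsg.Agent.GT.FourGroup

/-!
# A standard subgroup of type `M₂₃` or `McL`: 2-elements of `C(t) ⊓ L C(L)`
-/

set_option autoImplicit false

namespace Cfsg.Agent.Std.W

open Cfsg.Agent.GT Cfsg.Agent.Loc.Mss Cfsg.Agent.Wr Subgroup

universe u

variable {G : Type u} [Group G]

namespace Tw

theorem pgz {c : G} (hc : c * c = 1) : IsPGroup 2 (zpowers c) :=
  pg_iff.2 fun v hv => ⟨1, by
    rcases eq_one_or_eq_of_mem_zpowers_of_sq (by rw [sq, hc]) hv with rfl | rfl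
    · exact one_pow _
    · rw [pow_one, sq, hc]⟩

theorem ord2 {c : G} (hc : c * c = 1) (h1 : c ≠ 1) : orderOf c = 2 := orderOf_eq_prime (by rw [sq, hc]) h1

theorem mem_sup_t {A : Subgroup G} {t a : G} (tt : t * t = 1) (hc : t ∈ 𝐂[A]) :
    a ∈ A ⊔ zpowers t ↔ a ∈ A ∨ a * t ∈ A := by
  refine ⟨fun h => ?_, fun h => ?_⟩
  · obtain ⟨l, hl, v, hv, rfl⟩ := (mem_sup_norm (norm_of_cent (zpowers_le.2 hc))).1 h
    rcases eq_one_or_eq_of_mem_zpowers_of_sq (by rw [sq, tt]) hv with rfl | rfl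
    · exact .inl (by rwa [mul_one])
    · exact .inr (by rwa [mul_assoc, tt, mul_one])
  · rcases h with h | h
    · exact mem_sup_left h
    · exact (mul_mem_cancel_right (mem_sup_right (mem_zpowers t))).1 (mem_sup_left h)

theorem cent_t (b : Bas G) {t g : G} (tt : t * t = 1) (t1 : t ≠ 1) (tK : t ∈ 𝐂[b.L]) (h : g * t = t * g) :
    g ∈ 𝐍[b.L] :=
  b.std.centralizer_le (ord2 tt t1) tK (mem_centralizer_singleton_iff.2 h)

theorem t_notMem (s : Lw G) {t : G} (tt : t * t = 1) (t1 : t ≠ 1) (tK : t ∈ 𝐂[s.L]) : t ∉ s.L := fun h =>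
  t1 (s.two_one h (n := 1) (by rw [pow_one, sq, tt]) tK)

/-- The 2-elements of `C(t) ⊓ L C(L)` lie in `L ⟨t⟩`. -/
theorem two_L [Finite G] (s : Lw G) {t a : G} (tt : t * t = 1) (tK : t ∈ 𝐂[s.L])
    (two : ∀ k ∈ 𝐂[s.L], k * t = t * k → ∀ n, k ^ 2 ^ n = 1 → k = 1 ∨ k = t)
    (ha : a ∈ s.L ⊔ 𝐂[s.L]) (hc : a * t = t * a) {n : ℕ} (h2 : a ^ 2 ^ n = 1) : a ∈ s.L ∨ a * t ∈ s.L := by
  obtain ⟨l, hl, k, hk, rfl⟩ := (mem_sup_norm' (norm_cent le_normalizer)).1 ha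
  have c1 : Commute l k := mem_cent.1 hk l hl
  have c2 : Commute k t := by
    have e : Commute l t := mem_cent.1 tK l hl
    have := e.inv_left.mul_left (show Commute (l * k) t from hc)
    rwa [inv_mul_cancel_left] at this
  have h3 : k ^ 2 ^ n ∈ s.L := by
    rw [c1.mul_pow] at h2
    rw [eq_inv_of_mul_eq_one_right h2]
    exact inv_mem (pow_mem hl _)
  have ho := s.zodd _ h3 (pow_mem hk _)
  set m := orderOf (k ^ 2 ^ n) with hm
  have h4 := two (k ^ m) (pow_mem hk m) (c2.pow_left m) n (by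
    rw [← pow_mul, mul_comm, pow_mul, hm, pow_orderOf_eq_one])
  rw [← mem_sup_t tt tK]
  refine mem_of_pow_mem (p := m) (k := 1) ?_ ?_
  · exact ((Nat.coprime_two_left.2 ho).pow_left n).coprime_dvd_left (orderOf_dvd_of_pow_eq_one h2)
  · rw [pow_one, c1.mul_pow]
    refine mul_mem (mem_sup_left (pow_mem hl m)) (mem_sup_right ?_)
    rcases h4 with e | e <;> rw [e]
    exacts [one_mem _, mem_zpowers t]

end Tw

end Cfsg.Agent.Std.W
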